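import Mathlib

/-!
Two involutions are conjugate in the group they generate, or there is a central involution.
-/

set_option autoImplicit false

namespace CfsgLib.UnitTensor96

variable {G : Type*} [Group G]

/-- Two involutions of a finite group. -/
theorem conj_or_central [Finite G] {x y : G} (hx : x * x = 1) (hy : y * y = 1) :
    (∃ z ∈ Subgroup.closure ({x, y} : Set G), z * x * z⁻¹ = y) ∨
      ∃ j ∈ Subgroup.closure ({x, y} : Set G), j ≠ 1 ∧ j * j = 1 ∧ j * x = x * j ∧ j * y = y * j := by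
  have hxi : x⁻¹ = x := inv_eq_of_mul_eq_one_right hx
  have hyi : y⁻¹ = y := inv_eq_of_mul_eq_one_right hy
  set r := x * y with hr
  have hrm : r ∈ Subgroup.closure ({x, y} : Set G) :=
    mul_mem (Subgroup.subset_closure (by simp)) (Subgroup.subset_closure (by simp))
  have hconj : x * r * x⁻¹ = r⁻¹ := by
    rw [hr, mul_inv_rev, hxi, hyi, ← mul_assoc x x y, hx, one_mul]
  have hpow : ∀ i : ℕ, x * r ^ i = (r ^ i)⁻¹ * x := fun i => by
    have h := (conj_pow (a := x) (b := r) (i := i)).symm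
    rw [hconj, inv_pow] at h
    rw [← h, inv_mul_cancel_right]
  have hy' : y = x * r := by rw [hr, ← mul_assoc, hx, one_mul]
  have hm := pow_orderOf_eq_one r
  rcases Nat.even_or_odd (orderOf r) with ⟨i, hi⟩ | ⟨i, hi⟩
  · refine Or.inr ⟨r ^ i, pow_mem hrm i, ?_, ?_, ?_, ?_⟩
    · have := orderOf_pos r
      exact pow_ne_one_of_lt_orderOf (by omega) (by omega)
    · rw [← pow_add, ← hi, hm]
    · have h : (r ^ i)⁻¹ = r ^ i := inv_eq_of_mul_eq_one_right (by rw [← pow_add, ← hi, hm])
      rw [hpow, h]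
    · have h : (r ^ i)⁻¹ = r ^ i := inv_eq_of_mul_eq_one_right (by rw [← pow_add, ← hi, hm])
      rw [hy', ← mul_assoc (r ^ i), mul_assoc x r, (Commute.self_pow r i).eq, ← mul_assoc x, hpow i, h]
  · refine Or.inl ⟨r ^ i, pow_mem hrm i, ?_⟩
    rw [hy', mul_assoc]
    have h1 : x * (r ^ i)⁻¹ = r ^ i * x := by
      rw [mul_inv_eq_iff_eq_mul, mul_assoc, hpow, ← mul_assoc, mul_inv_cancel, one_mul]
    rw [h1, ← mul_assoc, ← pow_add]
    have h2 : r ^ (i + i) = r⁻¹ := eq_inv_of_mul_eq_one_left (by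
      rw [← pow_succ, show i + i + 1 = orderOf r by omega, hm])
    rw [h2, ← hconj, mul_assoc, inv_mul_cancel, mul_one]

end CfsgLib.UnitTensor96
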