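import Cfsg.Agent.UnitTensor96.Forms
import Cfsg.Agent.FormTensor89.Basic
import Cfsg.Agent.FormTensor91.Even

/-!
Two totally isotropic subspaces with square-zero maps onto them, in general position; in odd
characteristic the two root elements generate a group with a central involution.
-/

set_option autoImplicit false
set_option linter.unusedSectionVars false

namespace CfsgLib.UnitTensor96

open Module Matrix
open CfsgLib.FormTensor89 (InM mul_mulVec mulVec_inv inv_mulVec mulVec_injective)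
open CfsgLib.UnitCentres (perp sub_left zero_left)
open scoped MatrixGroups

variable {ι : Type} [Fintype ι] [DecidableEq ι] {F : Type*} [Field F] [Finite F] {τ : F ≃+* F}
  {B : (ι → F) → (ι → F) → F}

/-- Two totally isotropic subspaces with maps onto them, in general position. -/
structure Pair (B : (ι → F) → (ι → F) → F) (T U : Submodule F (ι → F))
    (P N : (ι → F) →ₗ[F] (ι → F)) : Prop where
  dimTU : finrank F T = finrank F U
  kerP : ∀ Y, P Y = 0 ↔ ∀ t ∈ T, B Y t = 0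
  kerN : ∀ Y, N Y = 0 ↔ ∀ u ∈ U, B Y u = 0
  imP : ∀ Y, P Y ∈ T
  imN : ∀ Y, N Y ∈ U
  isoT : ∀ t ∈ T, ∀ t' ∈ T, B t t' = 0
  isoU : ∀ u ∈ U, ∀ u' ∈ U, B u u' = 0
  backT : ∀ t ∈ T, N t ∈ T → t ∈ U
  backU : ∀ u ∈ U, P u ∈ U → u ∈ T
  ne : ¬ T ≤ U

/-- The matrix group acting on vectors. -/
def glHom : GL ι F →* Module.End F (ι → F) where
  toFun g := (g : Matrix ι ι F).mulVecLin
  map_one' := LinearMap.ext fun x => by simp
  map_mul' g h := LinearMap.ext fun x => mul_mulVec g h x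

@[simp] lemma glHom_apply (g : GL ι F) (x : ι → F) : glHom g x = (g : Matrix ι ι F) *ᵥ x := rfl

section Core

variable {V : Type*} [AddCommGroup V] [Module F V] [FiniteDimensional F V]

set_option maxHeartbeats 1000000 in
/-- The central involution of the group of two unipotent elements in general position. -/
theorem exists_flip_core {G : Type*} [Group G] [Finite G] {T U : Submodule F V} {P N : V →ₗ[F] V}
    (himP : ∀ Y, P Y ∈ T) (himN : ∀ Y, N Y ∈ U) (hNU : ∀ {u}, u ∈ U → N u = 0) (hPT : ∀ {t}, t ∈ T → P t = 0)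
    (hbT : ∀ t ∈ T, N t ∈ T → t ∈ U) (hbU : ∀ u ∈ U, P u ∈ U → u ∈ T) (hne0 : ¬ T ≤ U)
    (h2F : (2 : F) ≠ 0) (ρ : G →* Module.End F V) {M : Subgroup G} {xP xN : G} (hPM : xP ∈ M) (hNM : xN ∈ M)
    (hxP : ∀ Y, ρ xP Y = Y + P Y) (hxN : ∀ Y, ρ xN Y = Y + N Y)
    (hrigid : ∀ g ∈ M, (∀ Y, ρ g (ρ g Y) = Y) → (∀ u ∈ U, ρ g u = u) → (∀ t ∈ T, ρ g t = t) →
      (∀ Y, N Y = 0 → P Y = 0 → ρ g Y = Y) → g = 1) :
    ∃ j ∈ M, j * j = 1 ∧ (∀ t ∈ T, ρ j t ∈ T) ∧ (∀ u ∈ U, ρ j u ∈ U) ∧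
      (∀ Y, N Y = 0 → P Y = 0 → ρ j Y = Y) ∧ ((∀ u ∈ U, ρ j u = u) → False) := by
  have hmT : ∀ {t}, t ∈ T → N t = 0 → t ∈ U := fun ht h0 => hbT _ ht (h0 ▸ T.zero_mem)
  set W := T ⊔ U with hW
  set C := T.map N with hCdef
  have hNNP : ∀ Y, N (N Y) = 0 := fun Y => hNU (himN Y)
  have hPPY : ∀ Y, P (P Y) = 0 := fun Y => hPT (himP Y)
  have hdec : ∀ Y ∈ W, ∃ t ∈ T, ∃ u ∈ U, Y = t + u ∧ N Y = N t ∧ P Y = P u := fun Y hY => by
    obtain ⟨t, ht, u, hu, rfl⟩ := Submodule.mem_sup.1 hY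
    exact ⟨t, ht, u, hu, rfl, by rw [map_add, hNU hu, add_zero], by rw [map_add, hPT ht, zero_add]⟩
  have hcU : ∀ c ∈ C, c ∈ U := fun c hc => by
    obtain ⟨t, -, rfl⟩ := Submodule.mem_map.1 hc
    exact himN t
  have hC1 : ∀ Y ∈ W, N Y ∈ C := fun Y hY => by
    obtain ⟨t, ht, u, hu, -, e1, -⟩ := hdec Y hY
    rw [e1]; exact Submodule.mem_map_of_mem ht
  have hC2 : ∀ Y, N (P Y) ∈ C := fun Y => Submodule.mem_map_of_mem (himP Y)
  have hinT : ∀ Y ∈ W, N (P Y) = 0 → Y ∈ T := fun Y hY h0 => by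
    obtain ⟨t, ht, u, hu, rfl, -, e2⟩ := hdec Y hY
    rw [e2] at h0
    exact T.add_mem ht (hbU u hu (hmT (himP u) h0))
  have hinU : ∀ Y ∈ W, N Y = 0 → Y ∈ U := fun Y hY h0 => by
    obtain ⟨t, ht, u, hu, rfl, e1, -⟩ := hdec Y hY
    rw [e1] at h0
    exact U.add_mem (hmT ht h0) hu
  have hinj : ∀ c ∈ C, N (P c) = 0 → c = 0 := fun c hc h0 => by
    have h1 := hinT c (Submodule.mem_sup_right (hcU c hc)) h0
    obtain ⟨t, ht, rfl⟩ := Submodule.mem_map.1 hc
    exact hNU (hbT t ht h1)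
  -- the algebra
  set SC : Module.End F C := (N ∘ₗ P).restrict (fun u _ => hC2 u) with hSC
  have hSC' : ∀ c : C, (SC c : V) = N (P c) := fun c => rfl
  set R := Algebra.adjoin F ({SC} : Set (Module.End F C))
  have : Finite (Module.End F C) := Module.finite_of_finite F
  let : CommRing R := { (inferInstance : Ring R) with
    mul_comm := fun x y => Subtype.ext (congrArg Subtype.val
      ((Algebra.isMulCommutative_adjoin_singleton F SC).is_comm.comm x y)) }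
  set s : R := ⟨SC, Algebra.subset_adjoin (Set.mem_singleton SC)⟩ with hs
  have hSCinj : Function.Injective SC := fun u v h0 => by
    refine sub_eq_zero.1 (Subtype.ext (hinj _ (u - v).2 ?_))
    rw [← hSC', map_sub, h0, sub_self]; rfl
  have hsinj : Function.Injective fun x : R => s * x := fun x y h0 => by
    refine Subtype.ext (LinearMap.ext fun c => hSCinj ?_)
    have := LinearMap.congr_fun (congrArg Subtype.val h0) c
    simpa [hs] using this
  obtain ⟨s', hs'⟩ := (Finite.injective_iff_surjective.1 hsinj) 1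
  have : Nontrivial C := by
    by_contra hne
    rw [not_nontrivial_iff_subsingleton, Submodule.subsingleton_iff_eq_bot] at hne
    refine hne0 fun t ht => hmT ht ?_
    have := Submodule.mem_map_of_mem (f := N) ht
    rw [← hCdef, hne] at this
    exact (Submodule.mem_bot F).1 this
  have : Nontrivial R := ⟨⟨1, 0, fun h0 => one_ne_zero (α := Module.End F C) (congrArg Subtype.val h0)⟩⟩
  -- the generators
  let mN : SL(2, R) := ⟨!![1, 0; s, 1], by simp [Matrix.det_fin_two]⟩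
  let mP : SL(2, R) := ⟨!![1, 1; 0, 1], by simp [Matrix.det_fin_two]⟩
  let act : G → V → V := fun g Y => ρ g Y
  let good : G × SL(2, R) → Prop := fun p => p.1 ∈ M ∧
    (∀ Y ∈ W, act p.1 Y ∈ W ∧ ∀ c₁ c₂ : C, N Y = c₁ → N (P Y) = c₂ →
      N (act p.1 Y) = (((p.2 0 0).1 c₁ + (p.2 0 1).1 c₂ : C) : V) ∧
      N (P (act p.1 Y)) = (((p.2 1 0).1 c₁ + (p.2 1 1).1 c₂ : C) : V)) ∧
    (∀ Y, N Y = 0 → P Y = 0 → act p.1 Y = Y)
  have hgood_mul : ∀ x y, good x → good y → good (x * y) := by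
    intro x y hx hy
    have hxy : ∀ Y, act (x * y).1 Y = act x.1 (act y.1 Y) := fun Y => by simp [act]
    refine ⟨M.mul_mem hx.1 hy.1, fun Y hY => ?_, fun Y h1 h2 => ?_⟩
    · rw [hxy]
      refine ⟨(hx.2.1 _ (hy.2.1 Y hY).1).1, fun c₁ c₂ e1 e2 => ?_⟩
      obtain ⟨f1, f2⟩ := (hy.2.1 Y hY).2 c₁ c₂ e1 e2
      obtain ⟨g1, g2⟩ := (hx.2.1 _ (hy.2.1 Y hY).1).2 _ _ f1 f2
      refine ⟨g1.trans ?_, g2.trans ?_⟩ <;>
      · congr 1
        simp only [Prod.snd_mul, Matrix.SpecialLinearGroup.coe_mul, Matrix.mul_apply,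
          Fin.sum_univ_two, AddMemClass.coe_add, LinearMap.add_apply, MulMemClass.coe_mul,
          Module.End.mul_apply, map_add]
        abel
    · rw [hxy, hy.2.2 Y h1 h2, hx.2.2 Y h1 h2]
  have hgood_one : good 1 := ⟨M.one_mem, fun Y hY => ⟨by simpa [act] using hY, fun c₁ c₂ e1 e2 => by
    simp [act, e1, e2]⟩, fun Y _ _ => by simp [act]⟩
  set γN : G × SL(2, R) := (xN, mN) with hγN
  set γP : G × SL(2, R) := (xP, mP) with hγP
  have hgN : good γN := by
    refine ⟨hNM, fun Y hY => ⟨?_, fun c₁ c₂ e1 e2 => ?_⟩, fun Y h1 _ => ?_⟩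
    · simp only [hγN, act, hxN]; exact Submodule.add_mem _ hY (Submodule.mem_sup_right (himN Y))
    · simp only [hγN, act, hxN, mN, map_add, hNNP, add_zero]; rw [e1, e2]
      refine ⟨?_, ?_⟩
      · simp
      · simp [hs, hSC', add_comm]
    · simp only [hγN, act, hxN, h1, add_zero]
  have hgP : good γP := by
    refine ⟨hPM, fun Y hY => ⟨?_, fun c₁ c₂ e1 e2 => ?_⟩, fun Y _ h2 => ?_⟩
    · simp only [hγP, act, hxP]; exact Submodule.add_mem _ hY (Submodule.mem_sup_left (himP Y))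
    · simp only [hγP, act, hxP, mP, map_add, hPPY, map_zero, add_zero, e1, e2]
      refine ⟨?_, ?_⟩ <;> simp
    · simp only [hγP, act, hxP, h2, add_zero]
  set Γ := Subgroup.closure ({γP, γN} : Set (G × SL(2, R)))
  have hΓ : ∀ p ∈ Γ, good p := by
    intro p hp
    induction hp using Subgroup.closure_induction with
    | mem x hx => rcases hx with rfl | rfl <;> assumption
    | one => exact hgood_one
    | mul x y _ _ h1 h2 => exact hgood_mul x y h1 h2
    | inv x _ h1 =>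
      have hpow : ∀ n : ℕ, good (x ^ n) := fun n => by
        induction n with
        | zero => rw [pow_zero]; exact hgood_one
        | succ n ih => rw [pow_succ]; exact hgood_mul _ _ ih h1
      rw [inv_eq_of_mul_eq_one_left (a := x ^ (orderOf x - 1)) (b := x) (by
        rw [← pow_succ, Nat.sub_add_cancel (orderOf_pos x), pow_orderOf_eq_one])]
      exact hpow _
  obtain ⟨⟨j, m⟩, hjmΓ, hne', hsq'⟩ := CfsgLib.FormTensor91.exists_involution
    (MonoidHom.snd (G) SL(2, R)) (u := γP) (l := γN) (IsUnit.of_mul_eq_one s' hs') rfl rfl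
  have hsq : j * j = 1 ∧ m * m = 1 := Prod.mk.inj hsq'
  have hne : ¬ (j = 1 ∧ m = 1) := fun h0 => hne' (Prod.ext h0.1 h0.2)
  obtain ⟨hjM, hjW, hjp⟩ := hΓ _ hjmΓ
  change j ∈ M at hjM
  set jl := ρ j with hjl
  have hjj : ∀ Y, jl (jl Y) = Y := fun Y => by
    simp only [hjl]
    rw [← Module.End.mul_apply, ← map_mul, hsq.1, map_one, Module.End.one_apply]
  have hdouble : ∀ Y, jl (jl Y - Y) = jl Y - Y → jl Y = Y := fun Y h0 => by
    rw [map_sub, hjj] at h0
    have h3 : (2 : F) • (jl Y - Y) = 0 := by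
      rw [two_smul]
      nth_rw 1 [← h0]
      abel
    exact sub_eq_zero.1 ((smul_eq_zero.1 h3).resolve_left h2F)
  obtain ⟨e01, e10, e11⟩ := CfsgLib.FormTensor91.scalar_of_sq_one (h := algebraMap F R (2⁻¹))
    (by rw [← map_ofNat (algebraMap F R) 2, ← map_mul, mul_inv_cancel₀ h2F, map_one]) hsq.2
  set μ : Module.End F C := (m 0 0).1 with hμ
  have hcoord : ∀ Y ∈ W, ∀ c₁ c₂ : C, N Y = c₁ → N (P Y) = c₂ →
      jl Y ∈ W ∧ N (jl Y) = (μ c₁ : V) ∧ N (P (jl Y)) = (μ c₂ : V) := fun Y hY c₁ c₂ h1 h2 => by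
    obtain ⟨f0, f⟩ := hjW Y hY
    obtain ⟨f1, f2⟩ := f c₁ c₂ h1 h2
    refine ⟨f0, ?_, ?_⟩
    · refine f1.trans ?_; simp [e01, hμ]
    · refine f2.trans ?_; simp [e10, e11, hμ]
  have hjT : ∀ t ∈ T, jl t ∈ T ∧ ∀ c : C, N t = c → N (jl t) = (μ c : V) := fun t ht => by
    obtain ⟨f0, f1, f2⟩ := hcoord t (Submodule.mem_sup_left ht) ⟨_, hC1 t (Submodule.mem_sup_left ht)⟩ 0 rfl
      (by rw [hPT ht, map_zero]; rfl)
    rw [map_zero] at f2
    exact ⟨hinT _ f0 f2, fun c hc => by rw [f1]; congr 2; exact Subtype.ext hc⟩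
  have hjU : ∀ u ∈ U, jl u ∈ U ∧ ∀ c : C, N (P u) = c → N (P (jl u)) = (μ c : V) := fun u hu => by
    obtain ⟨f0, f1, f2⟩ := hcoord u (Submodule.mem_sup_right hu) 0 ⟨_, hC2 u⟩
      (by rw [hNU hu]; rfl) rfl
    rw [map_zero] at f1
    exact ⟨hinU _ f0 f1, fun c hc => by rw [f2]; congr 2; exact Subtype.ext hc⟩
  refine ⟨j, hjM, hsq.1, fun t ht => (hjT t ht).1, fun u hu => (hjU u hu).1, hjp, fun hU => hne ?_⟩
  have hjp' : ∀ Y, N Y = 0 → P Y = 0 → jl Y = Y := hjp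
  have hμ1 : μ = 1 := by
    refine LinearMap.ext fun c => Subtype.ext ?_
    obtain ⟨d, rfl⟩ := LinearMap.surjective_of_injective hSCinj c
    have := (hjU d (hcU _ d.2)).2 (SC d) rfl
    rw [show jl (d : V) = (d : V) from hU _ (hcU _ d.2), ← hSC'] at this
    exact this.symm
  have hT : ∀ t ∈ T, jl t = t := fun t ht => by
    refine hdouble t ?_
    have hmem := T.sub_mem (hjT t ht).1 ht
    refine hjp' _ ?_ (hPT hmem)
    rw [map_sub, (hjT t ht).2 ⟨_, hC1 t (Submodule.mem_sup_left ht)⟩ rfl, hμ1]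
    simp
  refine ⟨hrigid j hjM hjj hU hT hjp', Subtype.ext (Matrix.ext fun i k => ?_)⟩
  have h00 : m 0 0 = 1 := Subtype.ext hμ1
  fin_cases i <;> fin_cases k <;> simp [e01, e10, e11, h00]

end Core

namespace Pair

variable {T U : Submodule F (ι → F)} {P N : (ι → F) →ₗ[F] (ι → F)} (h : Pair B T U P N)
include h

lemma N_U {u : ι → F} (hu : u ∈ U) : N u = 0 := (h.kerN u).2 (h.isoU u hu)

lemma P_T {t : ι → F} (ht : t ∈ T) : P t = 0 := (h.kerP t).2 (h.isoT t ht)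

lemma meetT {t : ι → F} (ht : t ∈ T) (h0 : N t = 0) : t ∈ U := h.backT t ht (h0 ▸ T.zero_mem)

lemma meetU {u : ι → F} (hu : u ∈ U) (h0 : P u = 0) : u ∈ T := h.backU u hu (h0 ▸ U.zero_mem)

/-- The kernel of one map splits over the subspace. -/
lemma exists_split (hB : Cfsg.Geo.IsUnitaryForm τ B) {Y : ι → F} (hY : N Y = 0) :
    ∃ u ∈ U, N (Y - u) = 0 ∧ P (Y - u) = 0 := by
  set O := LinearMap.ker N ⊓ LinearMap.ker P with hO
  have hkN : LinearMap.ker N = perp hB (U : Set (ι → F)) := by ext Z; exact h.kerN Z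
  have hOdim : O = perp hB ((U ⊔ T : Submodule F (ι → F)) : Set (ι → F)) := by
    ext Z
    simp only [hO, Submodule.mem_inf, LinearMap.mem_ker, h.kerN, h.kerP]
    refine ⟨fun hZ X hX => ?_, fun hZ => ⟨fun u hu => hZ u (Submodule.mem_sup_left hu),
      fun t ht => hZ t (Submodule.mem_sup_right ht)⟩⟩
    obtain ⟨p, hp, q, hq, rfl⟩ := Submodule.mem_sup.1 hX
    rw [CfsgLib.UnitCentres.add_right hB, hZ.1 p hp, hZ.2 q hq, add_zero]
  have hsum : LinearMap.ker N = U ⊔ O := by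
    symm
    refine Submodule.eq_of_le_of_finrank_le (sup_le (fun u hu => LinearMap.mem_ker.2 (h.N_U hu)) inf_le_left) ?_
    have hUO : U ⊓ O = U ⊓ T := by
      ext Z
      simp only [hO, Submodule.mem_inf, LinearMap.mem_ker]
      exact ⟨fun ⟨h1, _, h3⟩ => ⟨h1, h.meetU h1 h3⟩, fun ⟨h1, h2⟩ => ⟨h1, h.N_U h1, h.P_T h2⟩⟩
    have d1 := Submodule.finrank_sup_add_finrank_inf_eq U O
    have d2 := Submodule.finrank_sup_add_finrank_inf_eq U T
    have d3 := finrank_perp hB (U ⊔ T)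
    have d4 := finrank_perp hB U
    rw [hUO] at d1
    rw [← hOdim] at d3
    rw [← hkN] at d4
    have := h.dimTU
    omega
  have hY' : Y ∈ U ⊔ O := hsum ▸ LinearMap.mem_ker.2 hY
  obtain ⟨u, hu, o, ho, rfl⟩ := Submodule.mem_sup.1 hY'
  exact ⟨u, hu, by rw [add_sub_cancel_left]; exact LinearMap.mem_ker.1 ho.1,
    by rw [add_sub_cancel_left]; exact LinearMap.mem_ker.1 ho.2⟩

/-- In odd characteristic the group of the two root elements contains a central involution. -/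
theorem exists_flip (hB : Cfsg.Geo.IsUnitaryForm τ B) (h2F : (2 : F) ≠ 0) {M : Subgroup (GL ι F)}
    (hiso : ∀ g ∈ M, CfsgLib.UnitCentres.Iso B g) (hP : InM M P) (hN : InM M N) :
    ∃ j ∈ M, (∀ X, (j : Matrix ι ι F) *ᵥ ((j : Matrix ι ι F) *ᵥ X) = X) ∧
      (∀ t ∈ T, (j : Matrix ι ι F) *ᵥ t ∈ T) ∧ (∀ u ∈ U, (j : Matrix ι ι F) *ᵥ u ∈ U) ∧
      (∀ Y, N Y = 0 → P Y = 0 → (j : Matrix ι ι F) *ᵥ Y = Y) ∧
      ((∀ u ∈ U, (j : Matrix ι ι F) *ᵥ u = u) → False) := by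
  obtain ⟨xP, hPM, hxP⟩ := hP
  obtain ⟨xN, hNM, hxN⟩ := hN
  have hrigid : ∀ g ∈ M, (∀ Y, glHom g (glHom g Y) = Y) → (∀ u ∈ U, glHom g u = u) →
      (∀ t ∈ T, glHom g t = t) → (∀ Y, N Y = 0 → P Y = 0 → glHom g Y = Y) → g = 1 := by
    intro g hg hgg hgU hgT hgO
    simp only [glHom_apply] at hgg hgU hgT hgO
    have hdouble : ∀ Y, (g : Matrix ι ι F) *ᵥ ((g : Matrix ι ι F) *ᵥ Y - Y) = (g : Matrix ι ι F) *ᵥ Y - Y →
        (g : Matrix ι ι F) *ᵥ Y = Y := fun Y h0 => by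
      rw [mulVec_sub, hgg] at h0
      have h5 : (2 : F) • ((g : Matrix ι ι F) *ᵥ Y - Y) = 0 := by
        rw [two_smul]
        nth_rw 1 [← h0]
        abel
      exact sub_eq_zero.1 ((smul_eq_zero.1 h5).resolve_left h2F)
    have hbd : ∀ Y X, (g : Matrix ι ι F) *ᵥ X = X → B ((g : Matrix ι ι F) *ᵥ Y - Y) X = 0 := fun Y X hX => by
      rw [sub_left hB]
      nth_rw 1 [← hX]
      rw [hiso g hg, sub_self]
    refine Units.ext (Matrix.ext_of_mulVec_single fun i => ?_)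
    rw [Units.val_one, Matrix.one_mulVec]
    exact hdouble _ (hgO _ ((h.kerN _).2 fun u hu => hbd _ u (hgU u hu))
      ((h.kerP _).2 fun t ht => hbd _ t (hgT t ht)))
  obtain ⟨j, hj, hjj, h1, h2, h3, h4⟩ := exists_flip_core (G := GL ι F) h.imP h.imN (fun hu => h.N_U hu)
    (fun ht => h.P_T ht) h.backT h.backU h.ne h2F glHom hPM hNM hxP hxN hrigid
  exact ⟨j, hj, fun X => by rw [← mul_mulVec, hjj, Units.val_one, Matrix.one_mulVec], h1, h2, h3, h4⟩

end Pair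

end CfsgLib.UnitTensor96
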