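import Cfsg.Agent.UnitTensor96.Basic
import Cfsg.Agent.UnitTensor96.Flip
import Cfsg.Agent.UnitTensor96.Dihedral

/-!
With only scalar coefficients every element preserves the tensor decomposition, whatever the gap between
the dimensions of the factors.
-/

set_option autoImplicit false
set_option linter.unusedSectionVars false

namespace CfsgLib.UnitTensor96

open Module Matrix
open CfsgLib.FormTensor89
open CfsgLib.UnitCentres (add_right smul_right zero_left zero_right sub_left sub_right orth_comm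
  upair perp exists_orth_sep exists_traceZero Iso)
open CfsgLib.TransvGL (ext_mulVec)

variable {ι κ₁ κ₂ : Type} [Fintype ι] [DecidableEq ι] [Fintype κ₁] [DecidableEq κ₁] [Fintype κ₂]
  [DecidableEq κ₂] {F : Type*} [Field F] [Finite F] {τ : F ≃+* F}
  {D : TData ι F (κ₁ → F) (κ₂ → F)} {M : Subgroup (GL ι F)}

lemma ctr_member {k z : κ₂ → F} (h : D.f₂ k z = 0) {a : ι → F} (ha : a ∈ D.memb k) : D.ctr z a = 0 := by
  obtain ⟨u, rfl⟩ := D.mem_memb.1 ha
  rw [D.ctr_ten, h, zero_smul]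

variable (H : UTen D τ M) (hsc : D.OnlyScalars M)
include H hsc

lemma maps_of_inv {g : GL ι F} (hg : g ∈ M) {w : κ₂ → F} (hw : w ≠ 0) (hww : D.f₂ w w = 0)
    (h : D.Maps g⁻¹) : D.Maps g := by
  obtain ⟨α, β, hαβ⟩ := TData.tensor_of_maps (hyp H) hsc (M.inv_mem hg) h
  obtain ⟨u₀, hu₀⟩ := TData.exists_ne_zero_V₁ (hyp H)
  have hβ0 : β w ≠ 0 := fun h0 => hu₀ (D.ten_eq_zero hw (mulVec_injective g⁻¹ (by
    dsimp only; rw [hαβ, h0, map_zero, mulVec_zero])))
  refine TData.maps_of_image (hyp H) hsc hg hβ0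
    (TData.iso_of_image (hyp H) (M.inv_mem hg) hww α fun u => hαβ u w) hw hww fun u => ?_
  obtain ⟨v, rfl⟩ := α.surjective u
  rw [← hαβ, mulVec_inv]
  exact D.ten_mem_memb _ _

/-- A root element keeping a large part of an image of a member. -/
lemma maps_of_meet {c : ℕ}
    (hbig : ∀ g' ∈ M, ∀ w₀' w, w₀' ≠ 0 → D.f₂ w₀' w₀' = 0 → D.f₂ w w = 0 →
      c < finrank F ↥(D.img g' w₀' ⊓ D.memb w) → D.Maps g')
    {g : GL ι F} (hg : g ∈ M) {w₀ k : κ₂ → F} (hw₀ : w₀ ≠ 0) (hww₀ : D.f₂ w₀ w₀ = 0) (hk : k ≠ 0)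
    (hkk : D.f₂ k k = 0) {x : GL ι F} (hx : x ∈ M) {ε : F} (hε : ε ≠ 0)
    (hxY : ∀ Y, (x : Matrix ι ι F) *ᵥ Y = Y + D.R (ε • LinearMap.id) k Y) (S : Submodule F (ι → F))
    (hS : S ≤ D.img g w₀) (hxS : ∀ s ∈ S, (x : Matrix ι ι F) *ᵥ s ∈ D.img g w₀) (hc : c < finrank F S) :
    D.Maps g := by
  have hh : g⁻¹ * x * g ∈ M := M.mul_mem (M.mul_mem (M.inv_mem hg) hx) hg
  have hle : S.map ((g⁻¹ * x : GL ι F) : Matrix ι ι F).mulVecLin ≤ D.img (g⁻¹ * x * g) w₀ ⊓ D.memb w₀ := by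
    rintro _ ⟨s, hs, rfl⟩
    obtain ⟨u, hu⟩ := TData.mem_img.1 (hS hs)
    obtain ⟨v, hv⟩ := TData.mem_img.1 (hxS s hs)
    rw [Matrix.mulVecLin_apply]
    exact ⟨TData.mem_img.2 ⟨u, by rw [mul_mulVec, hu]⟩, D.mem_memb.2 ⟨v, by
      rw [mul_mulVec, ← hv, inv_mulVec]⟩⟩
  have hfin : c < finrank F ↥(D.img (g⁻¹ * x * g) w₀ ⊓ D.memb w₀) :=
    hc.trans_le ((Submodule.equivMapOfInjective _ (mulVec_injective _) _).finrank_eq.trans_le
      (Submodule.finrank_mono hle))
  exact TData.maps_of_conj_root (hyp H) hsc (dims H) hg hw₀ hww₀ hk hkk hx hε hxY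
    (hbig _ hh w₀ w₀ hw₀ hww₀ hww₀ hfin) fun h0 => by rw [h0, finrank_bot] at hfin; omega

/-- A tensor involution of `M` that is scalar on the first factor acts on the second factor. -/
lemma right_of_scalar {j : GL ι F} (hj : j ∈ M)
    (hjj : ∀ X, (j : Matrix ι ι F) *ᵥ ((j : Matrix ι ι F) *ᵥ X) = X) (α : (κ₁ → F) ≃ₗ[F] (κ₁ → F))
    (β : (κ₂ → F) →ₗ[F] (κ₂ → F)) (hαβ : ∀ u x, (j : Matrix ι ι F) *ᵥ D.ten u x = D.ten (α u) (β x))
    {r : F} (hα : ∀ u, r • α u = u) :
    ∃ b : (κ₂ → F) ≃ₗ[F] (κ₂ → F), (∀ x, b (b x) = x) ∧ (∀ x x', D.f₂ (b x) (b x') = D.f₂ x x') ∧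
      (∀ u x, (j : Matrix ι ι F) *ᵥ D.ten u x = D.ten u (b x)) ∧
      ∀ x X, D.ctr (b x) ((j : Matrix ι ι F) *ᵥ X) = D.ctr x X := by
  obtain ⟨u₀, v₀, huv⟩ := (hyp H).two
  have hu₀ : u₀ ≠ 0 := fun h => huv (by rw [h]; exact zero_left H.u₁ v₀)
  have hr : r ≠ 0 := fun h => hu₀ (by rw [← hα u₀, h, zero_smul])
  set b₀ := r⁻¹ • β
  have hb : ∀ u x, (j : Matrix ι ι F) *ᵥ D.ten u x = D.ten u (b₀ x) := fun u x => by
    rw [hαβ]
    conv_rhs => rw [← hα u, map_smul, LinearMap.smul_apply]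
    simp only [b₀, LinearMap.smul_apply, map_smul, smul_smul, mul_inv_cancel₀ hr, one_smul]
  have hbb : ∀ x, b₀ (b₀ x) = x := fun x => by
    refine sub_eq_zero.1 (D.ten_eq_zero_right hu₀ ?_)
    rw [map_sub, ← hb, ← hb, hjj, sub_self]
  let b : (κ₂ → F) ≃ₗ[F] (κ₂ → F) := LinearEquiv.ofInvolutive b₀ hbb
  have hiso : ∀ x x', D.f₂ (b x) (b x') = D.f₂ x x' := fun x x' => by
    have h := (hyp H).iso j hj (D.ten u₀ x) (D.ten v₀ x')
    rw [hb, hb, D.B_ctr, D.B_ctr, D.ctr_ten, D.ctr_ten, D.f₁_smul_left, D.f₁_smul_left] at h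
    exact mul_right_cancel₀ huv h
  exact ⟨b, hbb, hiso, hb, fun x X => TData.ctr_of_lift₂ ((hyp H).iso j hj) (b := b) hb x X⟩

/-- An involution of `M` which is a tensor map congruent to one on some member acts on the second factor. -/
lemma right_involution {j : GL ι F} (hj : j ∈ M)
    (hjj : ∀ X, (j : Matrix ι ι F) *ᵥ ((j : Matrix ι ι F) *ᵥ X) = X) (hmaps : D.Maps j) {y z : κ₂ → F}
    (hyz : D.f₂ y z = 1)
    (hmod : ∀ u, D.ctr z ((j : Matrix ι ι F) *ᵥ D.ten u y) = D.ctr z (D.ten u y)) :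
    ∃ b : (κ₂ → F) ≃ₗ[F] (κ₂ → F), (∀ x, b (b x) = x) ∧ (∀ x x', D.f₂ (b x) (b x') = D.f₂ x x') ∧
      (∀ u x, (j : Matrix ι ι F) *ᵥ D.ten u x = D.ten u (b x)) ∧
      ∀ x X, D.ctr (b x) ((j : Matrix ι ι F) *ᵥ X) = D.ctr x X := by
  obtain ⟨α, β, hαβ⟩ := TData.tensor_of_maps (hyp H) hsc hj hmaps
  have hα : ∀ u, D.f₂ (β y) z • α u = u := fun u => by
    have h := hmod u
    rwa [hαβ, D.ctr_ten, D.ctr_ten, hyz, one_smul] at h
  exact right_of_scalar H hsc hj hjj α β hαβ hα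

set_option maxHeartbeats 1000000 in
/-- The step of the descent. -/
theorem step {c : ℕ}
    (hbig : ∀ g' ∈ M, ∀ w₀' w, w₀' ≠ 0 → D.f₂ w₀' w₀' = 0 → D.f₂ w w = 0 →
      c < finrank F ↥(D.img g' w₀' ⊓ D.memb w) → D.Maps g')
    {g : GL ι F} (hg : g ∈ M) {w₀ k : κ₂ → F} (hw₀ : w₀ ≠ 0) (hww₀ : D.f₂ w₀ w₀ = 0) (hk : k ≠ 0)
    (hkk : D.f₂ k k = 0) (hc : finrank F ↥(D.img g w₀ ⊓ D.memb k) = c) : D.Maps g := by
  classical
  by_contra hnm
  have hH := hyp H
  obtain ⟨ε, hε, hR⟩ := hH.root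
  obtain ⟨x, hx, hxY⟩ := hR k hkk
  obtain ⟨x₀, hx₀, hx₀Y⟩ := hR w₀ hww₀
  set T := D.img g w₀ with hT
  set U := D.memb k with hU
  set C := T ⊓ U with hC
  set N := D.R (ε • LinearMap.id) k with hN
  set y := g * x₀ * g⁻¹ with hy
  have hyM : y ∈ M := M.mul_mem (M.mul_mem hg hx₀) (M.inv_mem hg)
  set P := (g : Matrix ι ι F).mulVecLin ∘ₗ D.R (ε • LinearMap.id) w₀ ∘ₗ
    ((g⁻¹ : GL ι F) : Matrix ι ι F).mulVecLin with hPdef
  have hyY : ∀ Y, (y : Matrix ι ι F) *ᵥ Y = Y + P Y := fun Y => by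
    simp only [hy, mul_mulVec, hx₀Y, mulVec_add, mulVec_inv, hPdef, LinearMap.comp_apply,
      Matrix.mulVecLin_apply]
  obtain ⟨u₀, hu₀⟩ := TData.exists_ne_zero_V₁ hH
  have hkerctr : ∀ (w : κ₂ → F) (Y : ι → F), D.ctr w Y = 0 ↔ ∀ u ∈ D.memb w, D.B Y u = 0 := fun w Y => by
    refine ⟨fun h u hu => ?_, fun h => D.f₁_nondeg _ fun u => ?_⟩
    · obtain ⟨v, rfl⟩ := D.mem_memb.1 hu
      rw [D.B_ctr, h]; exact zero_left H.u₁ v
    · rw [← D.B_ctr]; exact h _ (D.ten_mem_memb u w)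
  have hR0 : ∀ w, w ≠ 0 → ∀ Y, D.R (ε • LinearMap.id) w Y = 0 ↔ D.ctr w Y = 0 := fun w hw Y =>
    ⟨fun h => (smul_eq_zero.1 (D.ten_eq_zero hw h)).resolve_left hε, fun h => by simp [h]⟩
  have hdimC : ∀ S : Submodule F (ι → F), C ≤ S → ¬ S ≤ C → c < finrank F S := fun S h1 h2 =>
    hc ▸ Submodule.finrank_lt_finrank_of_lt (lt_of_le_not_ge h1 h2)
  have hCN : ∀ s ∈ C, N s = 0 := fun s hs => (hR0 k hk s).2 (ctr_member hkk hs.2)
  have hbackT : ∀ t ∈ T, N t ∈ T → t ∈ U := fun t ht hNt => by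
    by_contra htU
    refine hnm (maps_of_meet H hsc hbig hg hw₀ hww₀ hk hkk hx hε hxY (C ⊔ Submodule.span F {t})
      (sup_le inf_le_left ((Submodule.span_singleton_le_iff_mem _ _).2 ht)) (fun s hs => ?_)
      (hdimC _ le_sup_left fun h => htU (h (Submodule.mem_sup_right (Submodule.mem_span_singleton_self t))).2))
    obtain ⟨a, ha, b, hb, rfl⟩ := Submodule.mem_sup.1 hs
    obtain ⟨r, rfl⟩ := Submodule.mem_span_singleton.1 hb
    rw [hxY, map_add, map_smul, hCN a ha, zero_add]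
    exact T.add_mem (T.add_mem ha.1 (T.smul_mem r ht)) (T.smul_mem r hNt)
  have hT0 : ∀ Y, P Y = 0 ↔ ∀ t ∈ T, D.B Y t = 0 := fun Y => by
    have h1 : P Y = 0 ↔ D.ctr w₀ (((g⁻¹ : GL ι F) : Matrix ι ι F) *ᵥ Y) = 0 := by
      rw [← hR0 w₀ hw₀]
      exact ⟨fun h => mulVec_injective g (h.trans (mulVec_zero _).symm), fun h => by
        simp only [hPdef, LinearMap.comp_apply, Matrix.mulVecLin_apply, h, mulVec_zero]⟩
    rw [h1, hkerctr]
    refine ⟨fun h t ht => ?_, fun h u hu => ?_⟩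
    · obtain ⟨v, rfl⟩ := TData.mem_img.1 ht
      rw [← mulVec_inv g Y, hH.iso g hg]
      exact h _ (D.ten_mem_memb _ _)
    · obtain ⟨v, rfl⟩ := D.mem_memb.1 hu
      rw [← hH.iso g hg, mulVec_inv]
      exact h _ (TData.mem_img.2 ⟨v, rfl⟩)
  have himP : ∀ Y, P Y ∈ T := fun Y =>
    TData.mem_img.2 ⟨ε • D.ctr w₀ (((g⁻¹ : GL ι F) : Matrix ι ι F) *ᵥ Y), rfl⟩
  have himN : ∀ Y, N Y ∈ U := fun Y => D.ten_mem_memb _ _
  have hisoT : ∀ t ∈ T, ∀ t' ∈ T, D.B t t' = 0 := fun t ht t' ht' => by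
    obtain ⟨v, rfl⟩ := TData.mem_img.1 ht
    obtain ⟨v', rfl⟩ := TData.mem_img.1 ht'
    rw [hH.iso g hg, D.B_ctr, D.ctr_ten, hww₀, zero_smul]; exact zero_left H.u₁ v'
  have hCP : ∀ s ∈ C, P s = 0 := fun s hs => (hT0 s).2 (hisoT s hs.1)
  have hbackU : ∀ u ∈ U, P u ∈ U → u ∈ T := fun u hu hPu => by
    by_contra huT
    have hT' : ∀ s ∈ U, ((g⁻¹ : GL ι F) : Matrix ι ι F) *ᵥ s ∈ D.img g⁻¹ k := fun s hs => by
      obtain ⟨v, rfl⟩ := D.mem_memb.1 hs
      exact TData.mem_img.2 ⟨v, rfl⟩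
    refine hnm (maps_of_inv H hsc hg hk hkk (maps_of_meet H hsc hbig (M.inv_mem hg) hk hkk hw₀ hww₀ hx₀ hε hx₀Y
      ((C ⊔ Submodule.span F {u}).map ((g⁻¹ : GL ι F) : Matrix ι ι F).mulVecLin) ?_ ?_ ?_))
    · rintro _ ⟨s, hs, rfl⟩
      exact hT' s ((sup_le inf_le_right ((Submodule.span_singleton_le_iff_mem _ _).2 hu)) hs)
    · rintro _ ⟨s, hs, rfl⟩
      obtain ⟨a, ha, b, hb, rfl⟩ := Submodule.mem_sup.1 hs
      obtain ⟨r, rfl⟩ := Submodule.mem_span_singleton.1 hb
      have h1 : (x₀ : Matrix ι ι F) *ᵥ (((g⁻¹ : GL ι F) : Matrix ι ι F) *ᵥ (a + r • u))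
          = ((g⁻¹ : GL ι F) : Matrix ι ι F) *ᵥ ((y : Matrix ι ι F) *ᵥ (a + r • u)) := by
        simp only [hy, mul_mulVec, inv_mulVec]
      rw [Matrix.mulVecLin_apply, h1]
      refine hT' _ ?_
      rw [hyY, map_add, map_smul, hCP a ha, zero_add]
      exact U.add_mem (U.add_mem ha.2 (U.smul_mem r hu)) (U.smul_mem r hPu)
    · rw [← (Submodule.equivMapOfInjective _ (mulVec_injective _) _).finrank_eq]
      exact hdimC _ le_sup_left fun h => huT (h (Submodule.mem_sup_right (Submodule.mem_span_singleton_self u))).1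
  have hTU : ¬ T ≤ U := fun h => hnm (TData.maps_of_image hH hsc hg hw₀ hww₀ hk hkk fun u =>
    h (TData.mem_img.2 ⟨u, rfl⟩))
  have hPair : Pair D.B T U P N :=
    { dimTU := by rw [hT, hU, TData.finrank_img g hw₀, TData.finrank_memb hk]
      kerP := hT0
      kerN := fun Y => (hR0 k hk Y).trans (hkerctr k Y)
      imP := himP
      imN := himN
      isoT := hisoT
      isoU := fun u hu => (hkerctr k u).1 (ctr_member hkk hu)
      backT := hbackT
      backU := hbackU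
      ne := hTU }
  -- vectors of the image killed by a contraction orthogonal to `k` are in the member
  have hkill : ∀ (z : κ₂ → F), z ≠ 0 → D.f₂ z z = 0 → D.f₂ k z = 0 → ∀ t ∈ T, D.ctr z t = 0 → t ∈ C := by
    intro z hz hzz hkz t ht ht0
    by_contra htC
    obtain ⟨x', hx', hx'Y⟩ := hR z hzz
    refine hnm (maps_of_meet H hsc hbig hg hw₀ hww₀ hz hzz hx' hε hx'Y (C ⊔ Submodule.span F {t})
      (sup_le inf_le_left ((Submodule.span_singleton_le_iff_mem _ _).2 ht)) (fun s hs => ?_)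
      (hdimC _ le_sup_left fun h => htC (h (Submodule.mem_sup_right (Submodule.mem_span_singleton_self t)))))
    have hle : C ⊔ Submodule.span F {t} ≤ LinearMap.ker (D.ctr z) := sup_le
      (fun a ha => LinearMap.mem_ker.2 (ctr_member hkz ha.2))
      ((Submodule.span_singleton_le_iff_mem _ _).2 (LinearMap.mem_ker.2 ht0))
    rw [hx'Y, (hR0 z hz s).2 (LinearMap.mem_ker.1 (hle hs)), add_zero]
    exact (sup_le inf_le_left ((Submodule.span_singleton_le_iff_mem _ _).2 ht) : C ⊔ _ ≤ T) hs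
  have hLemA : ∀ z, z ≠ 0 → D.f₂ z z = 0 → (∀ t ∈ T, D.ctr z t = 0) → False := fun z hz hzz h =>
    hnm (TData.maps_of_ctr_eq_zero hH hsc (dims H) hg hw₀ hww₀ hz hzz fun u => h _ (TData.mem_img.2 ⟨u, rfl⟩))
  have hunit : ∀ S : Finset (κ₂ → F), S.card ≤ 1 → ∃ p q, (∀ s ∈ S, D.f₂ s p = 0 ∧ D.f₂ s q = 0) ∧
      D.f₂ p q = 1 := by
    intro S hS
    obtain ⟨p, hp, hpS⟩ : ∃ p ∈ perp H.u₂ (S : Set (κ₂ → F)), p ∉ Submodule.span F (S : Set (κ₂ → F)) :=
      SetLike.not_le_iff_exists.1 fun h => by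
        have h1 := Submodule.finrank_mono h
        have h2 := finrank_perp_ge H.u₂ S
        have h3 := finrank_span_le (F := F) S
        have := H.four₂
        omega
    obtain ⟨d, hd, hpd⟩ := exists_orth_sep H.u₂ hpS
    refine ⟨p, τ (D.f₂ p d)⁻¹ • d, fun s hs => ⟨orth_comm H.u₂ (hp s hs), ?_⟩, ?_⟩
    · rw [smul_right H.u₂, hd s (Submodule.subset_span hs), mul_zero]
    · rw [smul_right H.u₂, H.u₂.involutive, inv_mul_cancel₀ hpd]
  by_cases h2F : (2 : F) = 0
  swap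
  · -- odd characteristic
    obtain ⟨j, hj, hjj, hjT, hjU, hjO, hrig⟩ :=
      hPair.exists_flip H.uB h2F H.iso ⟨y, hyM, hyY⟩ ⟨x, hx, hxY⟩
    have hmaps : D.Maps j := TData.maps_of_fix hH hsc hj hk hkk fun u => hjU _ (D.ten_mem_memb u k)
    obtain ⟨p, q, hpq', hpq⟩ := hunit {k} (by simp)
    obtain ⟨hkp, hkq⟩ := hpq' k (Finset.mem_singleton_self k)
    have hperp : ∀ v, D.f₂ k v = 0 → ∀ u, (j : Matrix ι ι F) *ᵥ D.ten u v - D.ten u v ∈ U := by
      intro v hv u
      obtain ⟨a, ha, h1, h2⟩ := hPair.exists_split H.uB (Y := D.ten u v)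
        ((hR0 k hk _).2 (by rw [D.ctr_ten, orth_comm H.u₂ hv, zero_smul]))
      have h3 := hjO _ h1 h2
      rw [mulVec_sub, sub_eq_sub_iff_sub_eq_sub] at h3
      rw [h3]
      exact U.sub_mem (hjU a ha) ha
    obtain ⟨b, hbb, hbiso, hb, hbctr⟩ := right_involution H hsc hj hjj hmaps hpq fun u => by
      rw [← sub_eq_zero, ← map_sub]
      exact ctr_member hkq (hperp p hkp u)
    obtain ⟨μ, hμ⟩ : ∃ μ : F, b k = μ • k := by
      have h1 := hjU _ (D.ten_mem_memb u₀ k)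
      rw [hb] at h1
      obtain ⟨v, hv⟩ := D.mem_memb.1 h1
      obtain ⟨φ, hφ⟩ := Module.Projective.exists_dual_ne_zero F hu₀
      refine ⟨φ v / φ u₀, sub_eq_zero.1 (D.f₂_nondeg _ fun z => ?_)⟩
      have h2 := congrArg (fun X => φ (D.ctr z X)) hv
      simp only [D.ctr_ten, map_smul, smul_eq_mul] at h2
      rw [sub_eq_add_neg, ← neg_smul, D.f₂_add_left, D.f₂_smul_left]
      field_simp
      linear_combination -h2
    have hμ2 : μ * μ = 1 := by
      have h1 := hbb k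
      rw [hμ, map_smul, hμ, smul_smul] at h1
      exact smul_left_injective F hk (h1.trans (one_smul F k).symm)
    rcases mul_self_eq_one_iff.1 hμ2 with rfl | rfl
    · refine hrig fun u hu => ?_
      obtain ⟨v, rfl⟩ := D.mem_memb.1 hu
      rw [hb, hμ, one_smul]
    · have hjneg : ∀ u ∈ U, (j : Matrix ι ι F) *ᵥ u = -u := fun u hu => by
        obtain ⟨v, rfl⟩ := D.mem_memb.1 hu
        rw [hb, hμ, map_smul, neg_one_smul]
      -- a fixed isotropic vector orthogonal to `k`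
      obtain ⟨z, ⟨hzk, hzb⟩, hz, hzz⟩ : ∃ z, (D.f₂ k z = 0 ∧ b z = z) ∧ z ≠ 0 ∧ D.f₂ z z = 0 := by
        have hrange : ∀ v, D.f₂ k v = 0 → b v - v ∈ Submodule.span F {k} := fun v hv => by
          by_contra hne
          obtain ⟨d, hd, hdd⟩ := exists_orth_sep H.u₂ hne
          have h1 := ctr_member (hd k (Submodule.mem_span_singleton_self k)) (hperp v hv u₀)
          rw [hb, ← map_sub, D.ctr_ten, smul_eq_zero] at h1
          exact h1.elim hdd hu₀
        set W := perp H.u₂ ({k} : Set (κ₂ → F))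
        let γ : W →ₗ[F] Submodule.span F ({k} : Set (κ₂ → F)) :=
          ((b.toLinearMap - LinearMap.id) ∘ₗ W.subtype).codRestrict _ fun v =>
            hrange v (orth_comm H.u₂ (v.2 k rfl))
        have h1 := LinearMap.finrank_range_add_finrank_ker γ
        have h2 := Submodule.finrank_le (LinearMap.range γ)
        rw [finrank_span_singleton hk] at h2
        have h3 : Fintype.card κ₂ ≤ finrank F W + 1 := by
          have := finrank_perp_ge H.u₂ ({k} : Finset (κ₂ → F))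
          rwa [Finset.coe_singleton, Finset.card_singleton] at this
        obtain ⟨z, hzK, hz, hzz⟩ := exists_iso_mem H.u₂ ((LinearMap.ker γ).map W.subtype) (by
          rw [← (Submodule.equivMapOfInjective _ W.injective_subtype _).finrank_eq]
          have := H.four₂
          omega)
        obtain ⟨v, hv, rfl⟩ := hzK
        refine ⟨_, ⟨orth_comm H.u₂ (v.2 k rfl), ?_⟩, hz, hzz⟩
        exact sub_eq_zero.1 (congrArg Subtype.val (LinearMap.mem_ker.1 hv))
      have hjT' : ∀ t ∈ T, (j : Matrix ι ι F) *ᵥ t = t := fun t ht => by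
        set d := (j : Matrix ι ι F) *ᵥ t - t with hd
        have hd0 : D.ctr z d = 0 := by
          rw [hd, map_sub]
          nth_rw 1 [← hzb]
          rw [hbctr, sub_self]
        have hdC := hkill z hz hzz hzk d (T.sub_mem (hjT t ht) ht) hd0
        have h1 : (j : Matrix ι ι F) *ᵥ d = d := hjO d (hCN d hdC) (hCP d hdC)
        rw [hjneg d hdC.2] at h1
        have h3 : (2 : F) • d = 0 := by rw [two_smul]; nth_rw 1 [← h1]; exact neg_add_cancel d
        exact sub_eq_zero.1 ((smul_eq_zero.1 h3).resolve_left h2F)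
      refine hLemA k hk hkk fun t ht => (hkerctr k t).2 fun u hu => ?_
      have h1 := hH.iso j hj t u
      rw [hjT' t ht, hjneg u hu, ← zero_sub u, sub_right H.uB, zero_right H.uB, zero_sub] at h1
      exact (mul_eq_zero.1 (show (2 : F) * D.B t u = 0 by linear_combination -h1)).resolve_left h2F
  · -- characteristic two
    have hdbl : ∀ X : ι → F, X + X = 0 := fun X => by rw [← two_smul F X, h2F, zero_smul]
    obtain ⟨k', hk', hk'k', hkk', -, hk'k, -⟩ := exists_iso_conn H.u₂ H.four₂ hkk hkk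
    have hk'k0 := orth_comm H.u₂ hkk'
    obtain ⟨x', hx', hx'Y⟩ := hR k' hk'k'
    set N' := D.R (ε • LinearMap.id) k' with hN'
    set w2 := x * x' with hw2
    have hNN : ∀ Y, N (N' Y) = 0 := fun Y =>
      (hR0 k hk _).2 (ctr_member hk'k0 (D.ten_mem_memb _ _))
    have hwY : ∀ Y, (w2 : Matrix ι ι F) *ᵥ Y = Y + (N Y + N' Y) := fun Y => by
      rw [hw2, mul_mulVec, hx'Y, hxY, map_add, hNN, add_zero]; abel
    have hkk2 : k ∉ Submodule.span F {k'} := fun h => hk'k (by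
      obtain ⟨r, hr⟩ := Submodule.mem_span_singleton.1 h
      refine Submodule.mem_span_singleton.2 ⟨r⁻¹, ?_⟩
      rw [← hr, inv_smul_smul₀ (fun h0 => hk (by rw [← hr, h0, zero_smul]))])
    obtain ⟨e, -, hke, hk'e⟩ := exists_iso_dual H.u₂ hkk2 hkk (fun u hu => by
      obtain ⟨r, rfl⟩ := Submodule.mem_span_singleton.1 hu
      rw [H.u₂.smul_left, hk'k0, mul_zero])
    obtain ⟨e', -, hk'e', hke'⟩ := exists_iso_dual H.u₂ hk'k hk'k' (fun u hu => by
      obtain ⟨r, rfl⟩ := Submodule.mem_span_singleton.1 hu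
      rw [H.u₂.smul_left, hkk', mul_zero])
    have he1 : D.f₂ e k = 1 := by rw [H.u₂.herm, hke, map_one]
    have he2 : D.f₂ e k' = 0 := orth_comm H.u₂ (hk'e k' (Submodule.mem_span_singleton_self k'))
    have he'2 : D.f₂ e' k' = 1 := by rw [H.u₂.herm, hk'e', map_one]
    have he'1 : D.f₂ e' k = 0 := orth_comm H.u₂ (hke' k (Submodule.mem_span_singleton_self k))
    have hsurjk : ∀ u, ∃ Y, N Y + N' Y = D.ten u k := fun u => ⟨D.ten (ε⁻¹ • u) e, by
      simp [hN, hN', D.ctr_ten, he1, he2, smul_smul, hε]⟩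
    have hsurjk' : ∀ u, ∃ Y, N Y + N' Y = D.ten u k' := fun u => ⟨D.ten (ε⁻¹ • u) e', by
      simp [hN, hN', D.ctr_ten, he'1, he'2, smul_smul, hε]⟩
    have hw2sq : w2 * w2 = 1 := ext_mulVec fun Y => by
      rw [mul_mulVec, hwY, hwY, Units.val_one, Matrix.one_mulVec]
      have e1 : ∀ Z, N (N Z) = 0 := fun Z => TData.R_sq D hkk Z
      have e2 : ∀ Z, N' (N' Z) = 0 := fun Z => TData.R_sq D hk'k' Z
      have e3 : ∀ Z, N' (N Z) = 0 := fun Z => (hR0 k' hk' _).2 (ctr_member hkk' (himN Z))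
      simp only [map_add, hNN, e1, e2, e3, add_zero]
      rw [add_assoc, hdbl, add_zero]
    have hy2 : y * y = 1 := ext_mulVec fun Y => by
      rw [mul_mulVec, hyY, hyY, Units.val_one, Matrix.one_mulVec, map_add,
        hPair.P_T (himP Y), add_zero, add_assoc, hdbl, add_zero]
    have : Finite (GL ι F) := inferInstance
    rcases conj_or_central hw2sq hy2 with ⟨z, -, hzz⟩ | ⟨j, hjcl, hj1, hjj', hjw, hjy⟩
    · -- conjugate root elements have ranges of equal dimensions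
      have hz : ∀ Y, (z : Matrix ι ι F) *ᵥ (N Y + N' Y) ∈ T := fun Y => by
        have h1 := congrArg (fun a : GL ι F => (a : Matrix ι ι F) *ᵥ Y) (mul_inv_eq_iff_eq_mul.1 hzz)
        simp only [mul_mulVec, hwY, hyY, mulVec_add] at h1
        rw [mulVec_add, add_left_cancel h1]
        exact himP _
      have hle : (D.memb k ⊔ D.memb k').map (z : Matrix ι ι F).mulVecLin ≤ T := by
        rw [Submodule.map_le_iff_le_comap]
        refine sup_le (fun X hX => ?_) fun X hX => ?_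
        · obtain ⟨u, rfl⟩ := D.mem_memb.1 hX
          obtain ⟨Y, hY⟩ := hsurjk u
          rw [← hY]; exact hz Y
        · obtain ⟨u, rfl⟩ := D.mem_memb.1 hX
          obtain ⟨Y, hY⟩ := hsurjk' u
          rw [← hY]; exact hz Y
      have h1 := Submodule.finrank_mono hle
      rw [← (Submodule.equivMapOfInjective _ (mulVec_injective z) _).finrank_eq, hT, TData.finrank_img g hw₀] at h1
      have hlt : D.memb k < D.memb k ⊔ D.memb k' := lt_of_le_not_ge le_sup_left fun h => hu₀ (by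
        have h2 := ctr_member (hke' k (Submodule.mem_span_singleton_self k))
          (h (Submodule.mem_sup_right (D.ten_mem_memb u₀ k')))
        rwa [D.ctr_ten, hk'e', one_smul] at h2)
      have h2 := Submodule.finrank_lt_finrank_of_lt hlt
      rw [TData.finrank_memb hk] at h2
      omega
    · -- the central involution
      have hcl : ∀ a ∈ Subgroup.closure ({w2, y} : Set (GL ι F)), a ∈ M ∧
          ∀ Y, N Y = 0 → N' Y = 0 → P Y = 0 → (a : Matrix ι ι F) *ᵥ Y = Y := by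
        intro a hacl
        induction hacl using Subgroup.closure_induction with
        | mem a ha =>
          rcases ha with rfl | rfl
          · exact ⟨M.mul_mem hx hx', fun Y h1 h2 _ => by rw [hwY, h1, h2, add_zero, add_zero]⟩
          · exact ⟨hyM, fun Y _ _ h3 => by rw [hyY, h3, add_zero]⟩
        | one => exact ⟨M.one_mem, fun Y _ _ _ => by rw [Units.val_one, Matrix.one_mulVec]⟩
        | mul a b _ _ ha hb =>
          exact ⟨M.mul_mem ha.1 hb.1, fun Y h1 h2 h3 => by rw [mul_mulVec, hb.2 Y h1 h2 h3, ha.2 Y h1 h2 h3]⟩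
        | inv a _ ha =>
          exact ⟨M.inv_mem ha.1, fun Y h1 h2 h3 => by
            nth_rw 1 [← ha.2 Y h1 h2 h3]; exact inv_mulVec a Y⟩
      obtain ⟨hjM, hjO⟩ := hcl j hjcl
      have hjj : ∀ X, (j : Matrix ι ι F) *ᵥ ((j : Matrix ι ι F) *ᵥ X) = X := fun X => by
        rw [← mul_mulVec, hjj', Units.val_one, Matrix.one_mulVec]
      have hjN : ∀ Y, (j : Matrix ι ι F) *ᵥ (N Y + N' Y)
          = N ((j : Matrix ι ι F) *ᵥ Y) + N' ((j : Matrix ι ι F) *ᵥ Y) := fun Y => by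
        have h1 := congrArg (fun a : GL ι F => (a : Matrix ι ι F) *ᵥ Y) hjw
        simp only [mul_mulVec, hwY, mulVec_add] at h1 ⊢
        exact add_left_cancel h1
      have hjP : ∀ Y, (j : Matrix ι ι F) *ᵥ P Y = P ((j : Matrix ι ι F) *ᵥ Y) := fun Y => by
        have h1 := congrArg (fun a : GL ι F => (a : Matrix ι ι F) *ᵥ Y) hjy
        simp only [mul_mulVec, hyY, mulVec_add] at h1
        exact add_left_cancel h1
      have hjT : ∀ t ∈ T, (j : Matrix ι ι F) *ᵥ t ∈ T := fun t ht => by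
        obtain ⟨v, rfl⟩ := TData.mem_img.1 ht
        obtain ⟨d, hd⟩ := D.exists_dual_vec hw₀
        have hd' : D.f₂ d w₀ = 1 := by rw [H.u₂.herm, hd, map_one]
        rw [show (g : Matrix ι ι F) *ᵥ D.ten v w₀ = P ((g : Matrix ι ι F) *ᵥ D.ten (ε⁻¹ • v) d) by
          simp [hPdef, inv_mulVec, D.ctr_ten, hd', smul_smul, hε], hjP]
        exact himP _
      have hctrN : ∀ v, D.f₂ k v = 0 → D.f₂ k' v = 0 → ∀ Y, D.ctr v (N Y + N' Y) = 0 := fun v h1 h2 Y => by
        simp [hN, hN', D.ctr_ten, h1, h2]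
      have hjk : ∀ u ∈ U, ∀ v, D.f₂ k v = 0 → D.f₂ k' v = 0 → D.ctr v ((j : Matrix ι ι F) *ᵥ u) = 0 := by
        intro u hu v h1 h2
        obtain ⟨a, rfl⟩ := D.mem_memb.1 hu
        obtain ⟨Y, hY⟩ := hsurjk a
        rw [← hY, hjN]
        exact hctrN v h1 h2 _
      have hmaps : D.Maps j := TData.maps_of_ctr_eq_zero hH hsc (dims H) hjM hk hkk hk hkk fun u =>
        hjk _ (D.ten_mem_memb u k) k hkk hk'k0
      -- `j - 1` maps into the sum of the three members
      set S := T ⊔ (U ⊔ D.memb k') with hS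
      have himj : ∀ Y, (j : Matrix ι ι F) *ᵥ Y - Y ∈ S := fun Y => by
        by_contra hY
        obtain ⟨d, hd, hdY⟩ := exists_orth_sep H.uB hY
        have h1 : N d = 0 := (hR0 k hk d).2 ((hkerctr k d).2 fun u hu =>
          orth_comm H.uB (hd u (Submodule.mem_sup_right (Submodule.mem_sup_left hu))))
        have h2 : N' d = 0 := (hR0 k' hk' d).2 ((hkerctr k' d).2 fun u hu =>
          orth_comm H.uB (hd u (Submodule.mem_sup_right (Submodule.mem_sup_right hu))))
        have h3 : P d = 0 := (hT0 d).2 fun t ht => orth_comm H.uB (hd t (Submodule.mem_sup_left ht))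
        refine hdY ?_
        rw [sub_left H.uB]
        nth_rw 1 [← hjO d h1 h2 h3]
        rw [H.iso j hjM, sub_self]
      -- a pure vector in the sum lies in the two members
      set L := Submodule.span F ({k, k'} : Set (κ₂ → F)) with hL
      have hpure : ∀ (w : κ₁ → F) (v : κ₂ → F) (X : ι → F), X ∈ U ⊔ D.memb k' → v ∉ L →
          D.ten w v + X ∈ S → w = 0 := by
        intro w v X hX hv hmem
        obtain ⟨d, hd, hvd⟩ := exists_orth_sep H.u₂ hv
        have hctrL : ∀ z, D.f₂ k z = 0 → D.f₂ k' z = 0 → ∀ Z ∈ U ⊔ D.memb k', D.ctr z Z = 0 := fun z h1 h2 Z hZ => by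
          obtain ⟨a, ha, a', ha', rfl⟩ := Submodule.mem_sup.1 hZ
          rw [map_add, ctr_member h1 ha, ctr_member h2 ha', add_zero]
        obtain ⟨z, hzL, hz, hzk, hzk', hzz, hvz⟩ : ∃ z, z ∈ L ∧ z ≠ 0 ∧ D.f₂ k z = 0 ∧ D.f₂ k' z = 0 ∧
            D.f₂ z z = 0 ∧ D.f₂ v z = 0 := by
          by_cases hvk : D.f₂ v k = 0
          · exact ⟨k, Submodule.subset_span (by simp), hk, hkk, hk'k0, hkk, hvk⟩
          · refine ⟨τ (-(D.f₂ v k' / D.f₂ v k)) • k + k', Submodule.add_mem _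
              (Submodule.smul_mem _ _ (Submodule.subset_span (by simp))) (Submodule.subset_span (by simp)),
              fun h0 => hk'k (Submodule.mem_span_singleton.2 ⟨-τ (-(D.f₂ v k' / D.f₂ v k)), by
                rw [neg_smul]; exact neg_eq_of_add_eq_zero_right h0⟩), ?_, ?_, ?_, ?_⟩ <;>
              simp only [add_right H.u₂, smul_right H.u₂, D.f₂_add_left, D.f₂_smul_left, H.u₂.involutive,
                hkk, hk'k', hkk', hk'k0, mul_zero, add_zero]
            field_simp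
            ring
        obtain ⟨t, ht, a, ha, hta⟩ := Submodule.mem_sup.1 hmem
        have ht0 : D.ctr z t = 0 := by
          have h1 := congrArg (D.ctr z) hta
          rwa [map_add, map_add, D.ctr_ten, hctrL z hzk hzk' a ha, hctrL z hzk hzk' X hX, hvz, zero_smul,
            add_zero, add_zero] at h1
        have htU : t ∈ U ⊔ D.memb k' := Submodule.mem_sup_left (hkill z hz hzz hzk t ht ht0).2
        have hkd : D.f₂ k d = 0 := hd k (Submodule.subset_span (by simp))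
        have hk'd : D.f₂ k' d = 0 := hd k' (Submodule.subset_span (by simp))
        have h1 := congrArg (D.ctr d) hta
        rw [map_add, map_add, hctrL d hkd hk'd t htU, hctrL d hkd hk'd a ha, hctrL d hkd hk'd X hX, D.ctr_ten,
          add_zero, add_zero, eq_comm, smul_eq_zero] at h1
        exact h1.resolve_left hvd
      -- so `j` is scalar on the first factor
      obtain ⟨α, β, hαβ⟩ := TData.tensor_of_maps hH hsc hjM hmaps
      obtain ⟨μ, hμα⟩ : ∃ μ : F, ∀ u, μ • α u = u := by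
        obtain ⟨p, q, hpq', hpq⟩ := hunit {k} (by simp)
        obtain ⟨hkp, hkq⟩ := hpq' k (Finset.mem_singleton_self k)
        have hkL : ∀ v ∈ L, ∀ u, D.ten u v ∈ U ⊔ D.memb k' := fun v hv u => by
          obtain ⟨c, c', rfl⟩ := Submodule.mem_span_pair.1 hv
          rw [map_add, map_smul, map_smul]
          exact Submodule.add_mem _ (Submodule.mem_sup_left (U.smul_mem c (D.ten_mem_memb u k)))
            (Submodule.mem_sup_right (Submodule.smul_mem _ c' (D.ten_mem_memb u k')))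
        have eig : ∀ (v : κ₂ → F) (μ : F), v ∉ L → β v - μ • v ∈ L → ∀ u, μ • α u = u := by
          intro v μ hv hβv u
          refine sub_eq_zero.1 (hpure _ v _ (hkL _ hβv (α u)) hv ?_)
          convert himj (D.ten u v) using 1
          rw [hαβ, map_sub, map_smul, map_sub, LinearMap.sub_apply, map_smul, LinearMap.smul_apply]
          abel
        have hpL : p ∉ L ∨ q ∉ L := by
          by_contra! h
          obtain ⟨c, c', hc⟩ := Submodule.mem_span_pair.1 h.1
          obtain ⟨d, d', hd⟩ := Submodule.mem_span_pair.1 h.2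
          rw [← hc, ← hd] at hpq
          simp [add_right H.u₂, smul_right H.u₂, D.f₂_add_left, D.f₂_smul_left, hkk, hk'k', hkk', hk'k0] at hpq
        obtain ⟨v, hv⟩ : ∃ v, v ∉ L := hpL.elim (fun h => ⟨p, h⟩) (fun h => ⟨q, h⟩)
        obtain ⟨φ, hφ⟩ := Module.Projective.exists_dual_ne_zero F hu₀
        set lam := φ (α (α u₀)) / φ u₀
        have hβ2 : ∀ x, lam • β (β x) = x := fun x => by
          refine sub_eq_zero.1 (D.f₂_nondeg _ fun z => ?_)
          have h1 := congrArg (fun X => φ (D.ctr z X)) (hjj (D.ten u₀ x))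
          simp only [hαβ, D.ctr_ten, map_smul, smul_eq_mul] at h1
          rw [sub_eq_add_neg, ← neg_one_smul F x, D.f₂_add_left, D.f₂_smul_left, D.f₂_smul_left]
          linear_combination (φ u₀)⁻¹ * h1 + D.f₂ x z * inv_mul_cancel₀ hφ
        have hl0 : lam ≠ 0 := fun h0 => hv (by rw [← hβ2 v, h0, zero_smul]; exact L.zero_mem)
        obtain ⟨m, hm⟩ : ∃ m : F, m * m = lam⁻¹ := by
          have hchar : ringChar F = 2 := by
            have : CharP F 2 := CharTwo.of_one_ne_zero_of_two_eq_zero one_ne_zero h2F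
            exact ringChar.eq F 2
          obtain ⟨m, hm⟩ := FiniteField.isSquare_of_char_two hchar lam⁻¹
          exact ⟨m, hm.symm⟩
        by_cases hv' : β v + m • v ∈ L
        · exact ⟨-m, eig v (-m) hv (by rwa [neg_smul, sub_neg_eq_add])⟩
        · refine ⟨m, eig _ m hv' ?_⟩
          have h1 : β (β v) = (m * m) • v := by rw [hm]; nth_rw 2 [← hβ2 v]; rw [inv_smul_smul₀ hl0]
          rw [map_add, map_smul, h1, show (m * m) • v + m • β v - m • (β v + m • v) = 0 by module]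
          exact L.zero_mem
      obtain ⟨b, hbb, hbiso, hb, hbctr⟩ := right_of_scalar H hsc hjM hjj α β hαβ hμα
      set γ : (κ₂ → F) →ₗ[F] (κ₂ → F) := b.toLinearMap - LinearMap.id with hγ
      have hγγ : ∀ v, γ (γ v) = 0 := fun v => by
        simp only [hγ, LinearMap.sub_apply, LinearEquiv.coe_coe, LinearMap.id_apply, map_sub, hbb]
        rw [show v - b v - (b v - v) = (2 : F) • (v - b v) by module, h2F, zero_smul]
      have hbsym : ∀ v v', D.f₂ (b v) v' = D.f₂ v (b v') := fun v v' => by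
        conv_lhs => rw [← hbb v', hbiso]
      have hγsym : ∀ v v', D.f₂ (γ v) v' = D.f₂ v (γ v') := fun v v' => by
        simp only [hγ, LinearMap.sub_apply, LinearEquiv.coe_coe, LinearMap.id_apply, sub_left H.u₂,
          sub_right H.u₂, hbsym]
      have hγL : ∀ v, γ v ∈ L := fun v => by
        by_contra hγv
        refine hu₀ (hpure u₀ (γ v) 0 (zero_mem _) hγv ?_)
        rw [add_zero]
        convert himj (D.ten u₀ v) using 1
        simp [hγ, hb, map_sub]
      obtain ⟨z, ⟨hzk, hzγ⟩, hz, hzz⟩ : ∃ z, (D.f₂ k z = 0 ∧ γ z = 0) ∧ z ≠ 0 ∧ D.f₂ z z = 0 := by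
        refine ⟨k, ⟨hkk, D.f₂_nondeg _ fun v => ?_⟩, hk, hkk⟩
        rw [hγsym]
        obtain ⟨c, c', hc⟩ := Submodule.mem_span_pair.1 (hγL v)
        rw [← hc, add_right H.u₂, smul_right H.u₂, smul_right H.u₂, hkk, hkk', mul_zero, mul_zero, add_zero]
      have hET : ∀ t ∈ T, (j : Matrix ι ι F) *ᵥ t - t ∈ C := fun t ht => by
        refine hkill z hz hzz hzk _ (T.sub_mem (hjT t ht) ht) ?_
        rw [map_sub]
        nth_rw 1 [← sub_eq_zero.1 (show b z - z = 0 from hzγ)]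
        rw [hbctr, sub_self]
      have hγT : ∀ v, D.f₂ k v = 0 → ∀ t ∈ T, D.ctr (γ v) t = 0 := fun v hv t ht => by
        have h1 := ctr_member hv (hET t ht).2
        rw [map_sub] at h1
        nth_rw 1 [← hbb v] at h1
        rw [hbctr, ← D.ctr_sub] at h1
        exact h1
      by_cases hv : ∃ v, D.f₂ k v = 0 ∧ γ v ≠ 0
      · obtain ⟨v, hkv, hv0⟩ := hv
        exact hLemA (γ v) hv0 (by rw [hγsym, hγγ]; exact zero_right H.u₂ v) (hγT v hkv)
      push Not at hv
      -- a transvection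
      obtain ⟨l, hl⟩ : ∃ l : F, γ e = l • k := by
        by_contra! hne
        obtain ⟨d, hd, hdd⟩ := exists_orth_sep H.u₂ (U := Submodule.span F {k}) (x := γ e) (fun hm => by
          obtain ⟨l, hl⟩ := Submodule.mem_span_singleton.1 hm
          exact hne l hl.symm)
        exact hdd (by rw [hγsym, hv d (hd k (Submodule.mem_span_singleton_self k))]; exact zero_right H.u₂ e)
      have hγe : ∀ v, γ v = (l * D.f₂ v k) • k := fun v => by
        have h1 := hv (v - D.f₂ v k • e) (by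
          refine orth_comm H.u₂ ?_
          rw [sub_left H.u₂, H.u₂.smul_left, he1, mul_one, sub_self])
        rw [map_sub, map_smul, hl, sub_eq_zero, smul_smul] at h1
        rw [h1, mul_comm]
      have hjR : ∀ X, (j : Matrix ι ι F) *ᵥ X = X + D.R (l • LinearMap.id) k X := fun X => by
        refine LinearMap.congr_fun (f := (j : Matrix ι ι F).mulVecLin)
          (g := LinearMap.id + D.R (l • LinearMap.id) k) (LinearMap.ext_on D.ten_span ?_) X
        rintro _ ⟨u, v, rfl⟩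
        have : b v = v + (l * D.f₂ v k) • k := by
          rw [← hγe]; exact (add_sub_cancel v (b v)).symm
        simp [hb, this, D.ctr_ten, smul_smul, mul_comm]
      have hl0 : l ≠ 0 := fun h0 => hj1 (ext_mulVec fun X => by
        rw [hjR, h0, Units.val_one, Matrix.one_mulVec]; simp)
      refine hTU fun t ht => hbackT t ht ?_
      have h1 := (hET t ht).1
      rw [hjR, add_sub_cancel_left] at h1
      have h2 := T.smul_mem (ε / l) h1
      convert h2 using 1
      simp [hN, smul_smul, hl0]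

/-- With only scalar coefficients the group preserves the tensor decomposition. -/
theorem preserves_of_onlyScalars {g : GL ι F} (hg : g ∈ M) :
    ∃ (α : (κ₁ → F) ≃ₗ[F] (κ₁ → F)) (β : (κ₂ → F) →ₗ[F] (κ₂ → F)),
      ∀ u z, (g : Matrix ι ι F) *ᵥ D.ten u z = D.ten (α u) (β z) := by
  have hH := hyp H
  have key : ∀ (i : ℕ), ∀ g ∈ M, ∀ w₀ w, w₀ ≠ 0 → D.f₂ w₀ w₀ = 0 → D.f₂ w w = 0 →
      finrank F (κ₁ → F) ≤ finrank F ↥(D.img g w₀ ⊓ D.memb w) + i → D.Maps g := by
    intro i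
    induction i with
    | zero =>
      intro g hg w₀ w hw₀ hww₀ hww hle
      have h2 : D.img g w₀ ≤ D.memb w := inf_eq_left.1 (Submodule.eq_of_le_of_finrank_le inf_le_left
        (by rw [TData.finrank_img g hw₀]; omega))
      obtain ⟨u₀, hu₀⟩ := TData.exists_ne_zero_V₁ hH
      refine TData.maps_of_image hH hsc hg hw₀ hww₀ (fun h0 => hu₀ (D.ten_eq_zero hw₀ (mulVec_injective g ?_)))
        hww fun u => h2 (TData.mem_img.2 ⟨u, rfl⟩)
      have h3 := h2 (TData.mem_img.2 ⟨u₀, rfl⟩)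
      rw [h0, D.memb_zero, Submodule.mem_bot] at h3
      simpa using h3
    | succ i ih =>
      intro g hg w₀ w hw₀ hww₀ hww hle
      obtain ⟨k, hk, hkk, hle'⟩ : ∃ k, k ≠ 0 ∧ D.f₂ k k = 0 ∧
          finrank F (κ₁ → F) ≤ finrank F ↥(D.img g w₀ ⊓ D.memb k) + (i + 1) := by
        rcases eq_or_ne w 0 with rfl | hw
        · obtain ⟨k, hk, hkk, -⟩ := exists_iso_conn H.u₂ H.four₂ (zero_left H.u₂ (0 : κ₂ → F)) (zero_left H.u₂ (0 : κ₂ → F))
          refine ⟨k, hk, hkk, ?_⟩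
          rw [D.memb_zero, inf_bot_eq, finrank_bot] at hle
          omega
        · exact ⟨w, hw, hww, hle⟩
      exact step H hsc (fun g' hg' w₀' w' h1 h2 h3 h4 => ih g' hg' w₀' w' h1 h2 h3 (by omega))
        hg hw₀ hww₀ hk hkk rfl
  obtain ⟨w, hw, hww, -⟩ := exists_iso_conn H.u₂ H.four₂ (zero_left H.u₂ (0 : κ₂ → F)) (zero_left H.u₂ (0 : κ₂ → F))
  exact TData.tensor_of_maps hH hsc hg
    (key (finrank F (κ₁ → F)) g hg w 0 hw hww (zero_left H.u₂ 0) (Nat.le_add_left _ _))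

end CfsgLib.UnitTensor96
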