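import Cfsg.Agent.UnitTensor96.Centres
import Cfsg.Agent.UnitTensor96.Descent
import Cfsg.Agent.FormTensor89.Instance
import Cfsg.Agent.Classical.UnitCentresStd
import Cfsg.Agent.Classical.Unitary.TensorTwo
import Cfsg.Agent.LinAlg.Witt.Std
import Cfsg.Agent.Classical.PseudoRefl

/-!
The stabiliser of a decomposition of the standard unitary space as a tensor product of two unitary spaces is maximal
in the special unitary group.
-/

set_option autoImplicit false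
set_option linter.unusedSectionVars false

namespace CfsgLib.UnitTensor96

open Module Matrix Cfsg.Geo
open CfsgLib.FormTensor89
open CfsgLib.UnitCentres (add_right smul_right Iso upair uT uT_mulVec uT_iso uT_mem_specialLinear)
open scoped Kronecker

variable {F : Type*} [Field F] [Fintype F] {n q n₁ n₂ : ℕ}

lemma unitary_of_pow {κ : Type} [Fintype κ] [DecidableEq κ] {τ : F ≃+* F} (hne : τ ≠ RingEquiv.refl F)
    (hinv : ∀ a, τ (τ a) = a) (hτ : ∀ a, τ a = a ^ q) {f : (κ → F) → (κ → F) → F}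
    (hf : IsUnitaryFormPow q f) {c : F} (hc : c ≠ 0) (hcτ : τ c = c) :
    IsUnitaryForm τ fun x y => c * f x y where
  ne_refl := hne
  involutive := hinv
  add_left x y v := by rw [hf.add_left, mul_add]
  smul_left d x v := by rw [hf.smul_left]; ring
  herm v w := by rw [map_mul, hcτ, hτ, ← hf.herm]
  nondegenerate v hv := by
    obtain ⟨⟨x, hx⟩, ⟨y, hy⟩⟩ := hf.nondegenerate v hv
    exact ⟨⟨x, mul_ne_zero hc hx⟩, ⟨y, mul_ne_zero hc hy⟩⟩

lemma isFactor_of_unitary {κ : Type} [Fintype κ] [DecidableEq κ] {τ : F ≃+* F}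
    {f : (κ → F) → (κ → F) → F} (hf : IsUnitaryForm τ f) : IsFactor (τ : F →+* F) f where
  add_left := hf.add_left
  smul_left := hf.smul_left
  add_right := add_right hf
  smul_right := smul_right hf
  nondeg x h := by
    by_contra hx
    obtain ⟨-, y, hy⟩ := hf.nondegenerate x hx
    exact hy (h y)
  nondeg' v h := by
    by_contra hv
    obtain ⟨⟨x, hx⟩, -⟩ := hf.nondegenerate v hv
    exact hx (h x)

/-- The scalar of the similarity is fixed. -/
lemma fixed_of_tensor {τ : F ≃+* F} {B : (Fin n → F) → (Fin n → F) → F} (hB : IsUnitaryForm τ B)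
    {f₁ : (Fin n₁ → F) → (Fin n₁ → F) → F} {f₂ : (Fin n₂ → F) → (Fin n₂ → F) → F}
    (hf₁ : IsUnitaryFormPow q f₁) (hf₂ : IsUnitaryFormPow q f₂) (hτ : ∀ a, τ a = a ^ q)
    (h1 : 0 < n₁) (h2 : 0 < n₂) (e : Fin n ≃ Fin n₁ × Fin n₂) (P : GL (Fin n) F) {c : F}
    (hten : ∀ u z u' z', B (tenLin e P u z) (tenLin e P u' z') = c * (f₁ u u' * f₂ z z')) : τ c = c := by
  obtain ⟨u, hu⟩ : ∃ u : Fin n₁ → F, u ≠ 0 := ⟨Pi.single ⟨0, h1⟩ 1, by simp⟩
  obtain ⟨z, hz⟩ : ∃ z : Fin n₂ → F, z ≠ 0 := ⟨Pi.single ⟨0, h2⟩ 1, by simp⟩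
  obtain ⟨-, u', hu'⟩ := hf₁.nondegenerate u hu
  obtain ⟨-, z', hz'⟩ := hf₂.nondegenerate z hz
  have h := hB.herm (tenLin e P u z) (tenLin e P u' z')
  rw [hten, hten, map_mul, map_mul, hτ (f₁ u' u), hτ (f₂ z' z), ← hf₁.herm, ← hf₂.herm] at h
  exact (mul_right_cancel₀ (mul_ne_zero hu' hz') h).symm

/-- An element acting factorwise by isometries is an isometry. -/
lemma iso_of_pure {ι : Type} [Fintype ι] [DecidableEq ι] {τ : F ≃+* F} {B : (ι → F) → (ι → F) → F}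
    (hB : IsUnitaryForm τ B) {S : Set (ι → F)} (hS : Submodule.span F S = ⊤) {g : GL ι F}
    (h : ∀ x ∈ S, ∀ y ∈ S, B ((g : Matrix ι ι F) *ᵥ x) ((g : Matrix ι ι F) *ᵥ y) = B x y) : Iso B g := by
  have h1 : ∀ y ∈ S, ∀ X, B ((g : Matrix ι ι F) *ᵥ X) ((g : Matrix ι ι F) *ᵥ y) = B X y := fun y hy X =>
    LinearMap.congr_fun (f := upair hB ((g : Matrix ι ι F) *ᵥ y) ∘ₗ (g : Matrix ι ι F).mulVecLin)
      (g := upair hB y) (LinearMap.ext_on hS fun x hx => by simpa using h x hx y hy) X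
  intro X Y
  exact LinearMap.congr_fun (f := upair hB ((g : Matrix ι ι F) *ᵥ Y) ∘ₗ (g : Matrix ι ι F).mulVecLin)
      (g := upair hB Y) (LinearMap.ext_on hS fun x hx => by
        simp only [LinearMap.comp_apply, Matrix.mulVecLin_apply, CfsgLib.UnitCentres.upair_apply]
        rw [hB.herm, h1 x hx, ← hB.herm]) X

/-- A fixed scalar different from `0` and `1`. -/
lemma exists_fixed_scalar (hF : Fintype.card F = q ^ 2) (hq : 3 ≤ q) {τ : F ≃+* F}
    (hinv : ∀ a, τ (τ a) = a) (hτ : ∀ a, τ a = a ^ q) : ∃ k : F, τ k = k ∧ k ≠ 0 ∧ k ≠ 1 := by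
  classical
  by_contra! h
  have hall : ∀ x : Fˣ, x ^ (q + 1) = 1 := fun x => Units.ext <| by
    have := h ((x : F) * τ x) (by rw [map_mul, hinv, mul_comm]) (mul_ne_zero x.ne_zero (by simp))
    rw [hτ] at this
    rw [Units.val_pow_eq_pow_val, pow_succ', this, Units.val_one]
  have hd := Nat.le_of_dvd (by omega) ((FiniteField.forall_pow_eq_one_iff F (q + 1)).1 hall)
  rw [hF] at hd
  have : 3 * q ≤ q ^ 2 := by rw [sq]; exact Nat.mul_le_mul_right q hq
  omega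

/-- Factorwise isometries of determinant one lie in the stabiliser. -/
lemma exists_lift {τ : F ≃+* F} (hB : IsUnitaryForm τ (Cfsg.hermForm n F q)) (e : Fin n ≃ Fin n₁ × Fin n₂)
    (P : GL (Fin n) F) {f₁ : (Fin n₁ → F) → (Fin n₁ → F) → F} {f₂ : (Fin n₂ → F) → (Fin n₂ → F) → F}
    (hten : ∀ u z u' z', Cfsg.hermForm n F q (tenLin e P u z) (tenLin e P u' z') = f₁ u u' * f₂ z z')
    {a : GL (Fin n₁) F} {b : GL (Fin n₂) F} (ha : Iso f₁ a) (hb : Iso f₂ b)
    (hsa : a ∈ specialLinear (Fin n₁) F) (hsb : b ∈ specialLinear (Fin n₂) F) :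
    ∃ g ∈ tensorProductSubgroup n₁ n₂ e P ⊓ (Cfsg.GU n F q ⊓ specialLinear (Fin n) F), ∀ u z,
      (g : Matrix (Fin n) (Fin n) F) *ᵥ tenLin e P u z
        = tenLin e P ((a : Matrix (Fin n₁) (Fin n₁) F) *ᵥ u) ((b : Matrix (Fin n₂) (Fin n₂) F) *ᵥ z) := by
  rw [CfsgLib.PseudoRefl.mem_specialLinear_iff] at hsa hsb
  set X := CfsgLib.Aschbacher.tconj e P
    ((a : Matrix (Fin n₁) (Fin n₁) F) ⊗ₖ (b : Matrix (Fin n₂) (Fin n₂) F)) with hX
  have hdet : X.det = 1 := by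
    rw [hX, CfsgLib.Aschbacher.tconj_apply, Matrix.det_units_conj, Matrix.det_submatrix_equiv_self,
      Matrix.det_kronecker, hsa, hsb, one_pow, one_pow, one_mul]
  have hu : IsUnit X := (Matrix.isUnit_iff_isUnit_det X).2 (by rw [hdet]; exact isUnit_one)
  have hg : ∀ u z, (hu.unit : Matrix (Fin n) (Fin n) F) *ᵥ tenLin e P u z
      = tenLin e P ((a : Matrix (Fin n₁) (Fin n₁) F) *ᵥ u) ((b : Matrix (Fin n₂) (Fin n₂) F) *ᵥ z) :=
    fun u z => by rw [IsUnit.unit_spec, hX, tconj_tenLin]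
  refine ⟨hu.unit, ⟨(CfsgLib.Aschbacher.mem_tensorProductSubgroup_iff e P _).2 ⟨a, b, hu.unit_spec⟩,
    CfsgLib.UnitCentres.mem_special.2 ⟨iso_of_pure hB (tenLin_span e P) ?_, ?_⟩⟩, hg⟩
  · rintro _ ⟨u, z, rfl⟩ _ ⟨u', z', rfl⟩
    rw [hg, hg, hten, hten, ha, hb]
  · rw [CfsgLib.PseudoRefl.mem_specialLinear_iff, IsUnit.unit_spec, hdet]

/-- The special unitary group does not stabilise the decomposition. -/
lemma not_le_tensor {τ : F ≃+* F} (hB : IsUnitaryForm τ (Cfsg.hermForm n F q)) (h1 : 2 ≤ n₁) (h2 : 2 ≤ n₂)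
    (e : Fin n ≃ Fin n₁ × Fin n₂) (P : GL (Fin n) F) {f₁ : (Fin n₁ → F) → (Fin n₁ → F) → F}
    {f₂ : (Fin n₂ → F) → (Fin n₂ → F) → F} (hf₁ : IsUnitaryForm τ f₁) (hf₂ : IsUnitaryForm τ f₂)
    (D : TData (Fin n) F (Fin n₁ → F) (Fin n₂ → F)) (hten : D.ten = tenLin e P) (hDB : D.B = Cfsg.hermForm n F q)
    (hD₁ : D.f₁ = f₁) (hD₂ : D.f₂ = f₂) :
    ¬ Cfsg.GU n F q ⊓ specialLinear (Fin n) F ≤ tensorProductSubgroup n₁ n₂ e P := by
  intro hle
  subst hD₁ hD₂
  obtain ⟨a, -, ha, haa⟩ := exists_iso_mem hf₁ (⊤ : Submodule F (Fin n₁ → F))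
    (by rw [finrank_top, Module.finrank_fin_fun]; exact h1)
  obtain ⟨w, -, hw, hww⟩ := exists_iso_mem hf₂ (⊤ : Submodule F (Fin n₂ → F))
    (by rw [finrank_top, Module.finrank_fin_fun]; exact h2)
  obtain ⟨a', -, -, ha'⟩ := exists_partner hf₁ ha haa
  obtain ⟨w', hw'w', hww', hw'w⟩ := exists_partner hf₂ hw hww
  have hZ : Cfsg.hermForm n F q (D.ten a w) (D.ten a w) = 0 := by
    rw [← hDB, D.B_ctr, D.ctr_ten, hww, zero_smul, CfsgLib.UnitCentres.zero_left hf₁]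
  obtain ⟨ε, hε, hεσ⟩ := CfsgLib.UnitCentres.exists_traceZero hB
  obtain ⟨α, β, hαβ⟩ := (CfsgLib.Aschbacher.mem_tensorProductSubgroup_iff e P _).1
    (hle (CfsgLib.UnitCentres.mem_special.2 ⟨uT_iso hB hZ hεσ, uT_mem_specialLinear hB hZ ε⟩))
  have key : ∀ u z v, D.f₂ z v • u + (ε * (D.f₂ z w * D.f₁ u a) * D.f₂ w v) • a
      = D.f₂ ((β : Matrix (Fin n₂) (Fin n₂) F) *ᵥ z) v • ((α : Matrix (Fin n₁) (Fin n₁) F) *ᵥ u) := by
    intro u z v
    have h : (uT hB hZ ε : Matrix (Fin n) (Fin n) F) *ᵥ D.ten u z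
        = D.ten ((α : Matrix (Fin n₁) (Fin n₁) F) *ᵥ u) ((β : Matrix (Fin n₂) (Fin n₂) F) *ᵥ z) := by
      rw [hαβ, hten, tconj_tenLin]
    rw [uT_mulVec] at h
    rw [← hDB, D.B_ctr, D.ctr_ten, D.f₁_smul_left] at h
    have h' := congrArg (D.ctr v) h
    rwa [map_add, map_smul, D.ctr_ten, D.ctr_ten, D.ctr_ten, smul_smul] at h'
  have e1 : a = D.f₂ ((β : Matrix (Fin n₂) (Fin n₂) F) *ᵥ w) w' • ((α : Matrix (Fin n₁) (Fin n₁) F) *ᵥ a) := by
    simpa [haa, hww'] using key a w w'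
  have e2 : D.f₂ ((β : Matrix (Fin n₂) (Fin n₂) F) *ᵥ w') w' = 0 := by
    have := key a w' w'
    rw [haa, hw'w'] at this
    simp only [mul_zero, zero_mul, zero_smul, add_zero] at this
    refine (smul_eq_zero.1 this.symm).resolve_right fun h => ha ?_
    rw [e1, h, smul_zero]
  have e3 := key a' w' w'
  rw [e2, hw'w', hw'w, ha', hww'] at e3
  simp only [zero_smul, mul_one, zero_add, smul_eq_zero] at e3
  exact e3.elim hε ha

/-- The stabiliser of a unitary tensor decomposition is maximal. -/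
theorem unitary_tensor_isMaximal (hF : Fintype.card F = q ^ 2) (h1 : 2 ≤ n₁) (h12 : n₁ < n₂) (h4 : 4 ≤ n₂)
    (hex : ¬ (n₁ = 2 ∧ q = 2)) (e : Fin n ≃ Fin n₁ × Fin n₂) (P : GL (Fin n) F)
    {f₁ : (Fin n₁ → F) → (Fin n₁ → F) → F} {f₂ : (Fin n₂ → F) → (Fin n₂ → F) → F}
    (hf₁ : IsUnitaryFormPow q f₁) (hf₂ : IsUnitaryFormPow q f₂)
    (hT : IsTensorFormStructure (fun x : F => x ^ q) (Cfsg.hermForm n F q) f₁ f₂ e P) :
    IsMaximalIn (Cfsg.GU n F q ⊓ specialLinear (Fin n) F)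
      (tensorProductSubgroup n₁ n₂ e P ⊓ (Cfsg.GU n F q ⊓ specialLinear (Fin n) F)) := by
  classical
  obtain ⟨c, hc, hcT⟩ := hT
  obtain ⟨τ, hτ, hB⟩ := CfsgLib.LinAlg.Witt.exists_isUnitaryForm_hermForm (n := n) hF
  have hten₀ : ∀ u z u' z', Cfsg.hermForm n F q (tenLin e P u z) (tenLin e P u' z')
      = c * (f₁ u u' * f₂ z z') := fun u z u' z' => by
    rw [tenLin_apply, tenLin_apply, hcT, CfsgLib.Unitary.unitary_formOfGram_pureTen hF hf₁ hf₂]
  have hcτ := fixed_of_tensor hB hf₁ hf₂ hτ (by omega) (by omega) e P hten₀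
  set f₁' : (Fin n₁ → F) → (Fin n₁ → F) → F := fun x y => c * f₁ x y with hf₁'def
  have hu₁ : IsUnitaryForm τ f₁' := unitary_of_pow hB.ne_refl hB.involutive hτ hf₁ hc hcτ
  have hu₂ : IsUnitaryForm τ f₂ := by
    simpa only [one_mul] using unitary_of_pow hB.ne_refl hB.involutive hτ hf₂ one_ne_zero (map_one τ)
  have hten : ∀ u z u' z', Cfsg.hermForm n F q (tenLin e P u z) (tenLin e P u' z') = f₁' u u' * f₂ z z' :=
    fun u z u' z' => by rw [hten₀, hf₁'def, mul_assoc]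
  set D := mkData e P (τ : F →+* F) hB.involutive 1 one_ne_zero (Cfsg.hermForm n F q) (isFactor_of_unitary hu₁)
    (isFactor_of_unitary hu₂) (fun x y => by rw [one_mul]; exact hu₂.herm x y) hB.add_left hB.smul_left
    (fun X Y Z => add_right hB X Y Z) hten
  have hcard := Fintype.card_congr e
  rw [Fintype.card_prod, Fintype.card_fin, Fintype.card_fin, Fintype.card_fin] at hcard
  have hn : 4 ≤ n := by rw [hcard]; exact le_trans (by norm_num) (Nat.mul_le_mul h1 h4)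
  refine ⟨lt_of_le_of_ne inf_le_right fun h => not_le_tensor hB h1 (by omega) e P hu₁ hu₂ D rfl rfl rfl rfl
    (h.ge.trans inf_le_left), fun M hle hMU => ?_⟩
  have hq : 2 ≤ q := by
    by_contra hq
    have : 1 < Fintype.card F := Fintype.one_lt_card
    rw [hF] at this
    interval_cases q <;> simp at this
  have H : UTen D τ M :=
    { hσ := fun _ => rfl
      u₁ := hu₁
      u₂ := hu₂
      uB := hB
      iso := fun g hg => (CfsgLib.UnitCentres.mem_special.1 (hMU hg)).1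
      l₁ := fun a ha hsa => by
        obtain ⟨g, hg, hgX⟩ := exists_lift hB e P hten (b := 1) ha (fun x y => by simp) hsa (one_mem _)
        exact ⟨g, hle hg, fun u z => (hgX u z).trans (by rw [Units.val_one, one_mulVec]; rfl)⟩
      l₂ := fun b hb hsb => by
        obtain ⟨g, hg, hgX⟩ := exists_lift hB e P hten (a := 1) (fun x y => by simp) hb (one_mem _) hsb
        exact ⟨g, hle hg, fun u z => (hgX u z).trans (by rw [Units.val_one, one_mulVec]; rfl)⟩
      two₁ := by rwa [Fintype.card_fin]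
      four₂ := by rwa [Fintype.card_fin]
      gap := by rwa [Fintype.card_fin, Fintype.card_fin]
      small := by
        rw [Fintype.card_fin]
        rcases Nat.lt_or_ge n₁ 3 with h | h
        · exact Or.inl (exists_fixed_scalar hF (by omega) hB.involutive hτ)
        · exact Or.inr h }
  by_cases hsc : D.OnlyScalars M
  · refine Or.inl (le_antisymm (le_inf (fun g hg => ?_) hMU) hle)
    obtain ⟨α, β, hαβ⟩ := preserves_of_onlyScalars H hsc hg
    exact mem_tensor_of_pure (by omega) e P g α β hαβ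
  · exact Or.inr (le_antisymm hMU
      (CfsgLib.UnitCentres.gu_le_of_centres hF hn hτ hB fun v hv => centre H hsc hv))

end CfsgLib.UnitTensor96
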