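import Cfsg.Agent.Classical.UnitCentres

/-!
Unitary forms given as functions: dimensions of orthogonals, isotropic vectors, transitivity.
-/

set_option autoImplicit false
set_option linter.unusedSectionVars false

namespace CfsgLib.UnitTensor96

open Module Matrix
open CfsgLib.UnitCentres (add_right smul_right zero_left zero_right sub_left sub_right orth_comm
  norm_fixed exists_trace exists_trace_one exists_norm norm_add_smul exists_isotropic_shift upair perp
  exists_upair_eq exists_orth_sep Iso)

variable {κ : Type} [Fintype κ] [DecidableEq κ] {F : Type*} [Field F] [Finite F] {τ : F ≃+* F}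
  {f : (κ → F) → (κ → F) → F} (hf : Cfsg.Geo.IsUnitaryForm τ f)

lemma mem_perp {S : Set (κ → F)} {x : κ → F} : x ∈ perp hf S ↔ ∀ w ∈ S, f x w = 0 := Iff.rfl

/-- A subspace is not the union of two proper subspaces. -/
lemma exists_not_mem_two {V : Type*} [AddCommGroup V] [Module F V] {P A B : Submodule F V}
    (hA : ¬ P ≤ A) (hB : ¬ P ≤ B) : ∃ x ∈ P, x ∉ A ∧ x ∉ B := by
  obtain ⟨a, ha, haA⟩ := SetLike.not_le_iff_exists.1 hA
  obtain ⟨b, hb, hbB⟩ := SetLike.not_le_iff_exists.1 hB
  by_cases haB : a ∈ B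
  · by_cases hbA : b ∈ A
    · exact ⟨a + b, P.add_mem ha hb, fun h => haA ((Submodule.add_mem_iff_left _ hbA).1 h),
        fun h => hbB ((Submodule.add_mem_iff_right _ haB).1 h)⟩
    · exact ⟨b, hb, hbA, hbB⟩
  · exact ⟨a, ha, haA, haB⟩

/-- Extending a map of two independent vectors. -/
lemma exists_linearMap_pair {V : Type*} [AddCommGroup V] [Module F V] {w z : V} (hw : w ≠ 0)
    (hz : z ∉ Submodule.span F {w}) (w' z' : V) : ∃ L : V →ₗ[F] V, L w = w' ∧ L z = z' := by
  obtain ⟨l, hl, hker⟩ := Submodule.exists_le_ker_of_notMem hz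
  obtain ⟨m, hm⟩ := Module.Projective.exists_dual_ne_zero F hw
  have hlw : l w = 0 := hker (Submodule.mem_span_singleton_self w)
  refine ⟨((m w)⁻¹ • m).smulRight w' + ((l z)⁻¹ • l).smulRight (z' - ((m w)⁻¹ * m z) • w'), ?_, ?_⟩
  · simp [hlw, hm]
  · simp [hl, smul_smul]

lemma finrank_span_le (S : Finset (κ → F)) : finrank F (Submodule.span F (S : Set (κ → F))) ≤ S.card :=
  finrank_span_finset_le_card (R := F) S

include hf

lemma perp_span (S : Set (κ → F)) : perp hf (Submodule.span F S : Set (κ → F)) = perp hf S := by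
  refine le_antisymm (fun x hx w hw => hx w (Submodule.subset_span hw)) fun x hx w hw => ?_
  refine Submodule.span_induction (p := fun w _ => f x w = 0) hx (zero_right hf x)
    (fun a b _ _ ha hb => by rw [add_right hf, ha, hb, add_zero])
    (fun c a _ ha => by rw [smul_right hf, ha, mul_zero]) hw

/-- The orthogonal of a subspace has complementary dimension. -/
lemma finrank_perp (U : Submodule F (κ → F)) :
    finrank F (perp hf (U : Set (κ → F))) + finrank F U = Fintype.card κ := by
  let b := Module.finBasis F U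
  let L : (κ → F) →ₗ[F] (Fin (finrank F U) → F) := LinearMap.pi fun i => upair hf (b i : κ → F)
  have hker : LinearMap.ker L = perp hf (U : Set (κ → F)) := by
    refine le_antisymm (fun x hx => ?_) fun x hx => funext fun i => hx _ (b i).2
    intro w hw
    have hw' : (⟨w, hw⟩ : U) ∈ Submodule.span F (Set.range b) := by rw [b.span_eq]; trivial
    refine Submodule.span_induction (p := fun (w : U) _ => f x (w : κ → F) = 0) ?_ (zero_right hf x)
      (fun a c _ _ ha hc => by rw [Submodule.coe_add, add_right hf, ha, hc, add_zero])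
      (fun c a _ ha => by rw [Submodule.coe_smul, smul_right hf, ha, mul_zero]) hw'
    rintro _ ⟨i, rfl⟩
    exact congrFun hx i
  have hsurj : LinearMap.range L = ⊤ := by
    refine eq_top_iff.2 fun c _ => ?_
    obtain ⟨φ, hφ⟩ := LinearMap.exists_extend (b.constr F fun i => τ (c i))
    obtain ⟨d, hd⟩ := exists_upair_eq hf φ
    refine ⟨d, funext fun i => ?_⟩
    have h1 : f (b i : κ → F) d = τ (c i) := by
      have h2 := LinearMap.congr_fun hφ (b i)
      rw [LinearMap.comp_apply, Submodule.subtype_apply, Basis.constr_basis] at h2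
      rw [← h2, ← hd]; rfl
    show f d (b i : κ → F) = c i
    rw [hf.herm, h1, hf.involutive]
  have h := LinearMap.finrank_range_add_finrank_ker L
  rw [hsurj, hker, finrank_top, Module.finrank_fin_fun, Module.finrank_fintype_fun_eq_card] at h
  omega

lemma finrank_perp_ge (S : Finset (κ → F)) :
    Fintype.card κ ≤ finrank F (perp hf (S : Set (κ → F))) + S.card := by
  have h := finrank_perp hf (Submodule.span F (S : Set (κ → F)))
  rw [perp_span] at h
  have := finrank_span_le (F := F) S
  omega

/-- A non-degenerate proper subspace has an anisotropic vector in its orthogonal. -/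
lemma exists_aniso_perp (U : Submodule F (κ → F)) (hU : ∀ x ∈ U, (∀ u ∈ U, f x u = 0) → x = 0)
    (hd : finrank F U < Fintype.card κ) : ∃ v, (∀ u ∈ U, f v u = 0) ∧ f v v ≠ 0 := by
  by_contra hno
  push Not at hno
  set P := perp hf (U : Set (κ → F))
  have hdis : U ⊓ P = ⊥ := (Submodule.eq_bot_iff _).2 fun x hx => hU x hx.1 hx.2
  have hP := finrank_perp hf U
  have htop : U ⊔ P = ⊤ := Submodule.eq_top_of_finrank_eq (by
    have h := Submodule.finrank_sup_add_finrank_inf_eq U P
    rw [hdis, finrank_bot] at h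
    change finrank F P + _ = _ at hP
    rw [Module.finrank_fintype_fun_eq_card]; omega)
  obtain ⟨x, hx, hx0⟩ := Submodule.exists_mem_ne_zero_of_ne_bot (p := P) fun h => by
    rw [show finrank F P = 0 by rw [h, finrank_bot]] at hP; omega
  obtain ⟨-, y, hy⟩ := hf.nondegenerate x hx0
  obtain ⟨a, ha, b, hb, rfl⟩ := Submodule.mem_sup.1 (show y ∈ U ⊔ P by rw [htop]; trivial)
  refine hy ?_
  rw [add_right hf, hx a ha, zero_add,
    CfsgLib.UnitCentres.orth_of_isotropic hf (P := P) (fun z hz => hno z hz) hx hb]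

/-- Two different solutions of a norm equation. -/
lemma exists_two_norm {r : F} (hr : τ r = r) (hr0 : r ≠ 0) :
    ∃ l l' : F, l * τ l = r ∧ l' * τ l' = r ∧ l ≠ l' := by
  obtain ⟨a, ha⟩ := exists_norm hf hr
  obtain ⟨c, hc⟩ : ∃ c, τ c ≠ c := by
    by_contra! h; exact hf.ne_refl (RingEquiv.ext h)
  have hc0 : c ≠ 0 := fun h => hc (by rw [h, map_zero])
  have hc' : τ c ≠ 0 := by simpa using hc0
  refine ⟨a, a * (c / τ c), ha, ?_, fun h => ?_⟩
  · rw [map_mul, map_div₀, hf.involutive, ← ha]; field_simp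
  · have ha0 : a ≠ 0 := fun h0 => hr0 (by rw [← ha, h0, zero_mul])
    have h1 : c / τ c = 1 := mul_left_cancel₀ ha0 (by rw [← h, mul_one])
    exact hc (div_eq_one_iff_eq hc' |>.1 h1).symm

/-- A plane contains a non-zero isotropic vector. -/
lemma exists_iso_mem (P : Submodule F (κ → F)) (hP : 2 ≤ finrank F P) :
    ∃ v ∈ P, v ≠ 0 ∧ f v v = 0 := by
  obtain ⟨x, hx, hx0⟩ := Submodule.exists_mem_ne_zero_of_ne_bot (p := P) fun h => by
    rw [h, finrank_bot] at hP; omega
  by_cases hxx : f x x = 0
  · exact ⟨x, hx, hx0, hxx⟩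
  obtain ⟨y, hy, hyx⟩ : ∃ y ∈ P, y ∉ Submodule.span F {x} := SetLike.not_le_iff_exists.1 fun h => by
    have := Submodule.finrank_mono h
    rw [finrank_span_singleton hx0] at this
    omega
  set y' := y - (f y x / f x x) • x with hy'
  have hy'x : f y' x = 0 := by rw [hy', sub_left hf, hf.smul_left]; field_simp; ring
  have hy'0 : y' ≠ 0 := fun h => hyx (Submodule.mem_span_singleton.2 ⟨_, (sub_eq_zero.1 h).symm⟩)
  have hy'P : y' ∈ P := P.sub_mem hy (P.smul_mem _ hx)
  by_cases hyy : f y' y' = 0
  · exact ⟨y', hy'P, hy'0, hyy⟩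
  obtain ⟨a, ha⟩ := exists_norm hf (r := -(f x x) / f y' y')
    (by rw [map_div₀, map_neg, norm_fixed hf, norm_fixed hf])
  refine ⟨x + a • y', P.add_mem hx (P.smul_mem _ hy'P), fun h => hyy ?_, ?_⟩
  · have h1 := congrArg (fun v => f v x) h
    simp only [hf.add_left, hf.smul_left, hy'x, mul_zero, add_zero, zero_left hf] at h1
    exact absurd h1 hxx
  · rw [norm_add_smul hf, hy'x, orth_comm hf hy'x, mul_zero, add_zero, mul_zero, add_zero, ha,
      div_mul_cancel₀ _ hyy, add_neg_cancel]

lemma exists_partner {a : κ → F} (ha : a ≠ 0) (haa : f a a = 0) :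
    ∃ e, f e e = 0 ∧ f a e = 1 ∧ f e a = 1 := by
  obtain ⟨-, d, hd⟩ := hf.nondegenerate a ha
  obtain ⟨t, ht⟩ := exists_isotropic_shift hf haa (d := d) hd
  have h1 : f a (d + t • a) ≠ 0 := by rwa [add_right hf, smul_right hf, haa, mul_zero, add_zero]
  refine ⟨τ (f a (d + t • a))⁻¹ • (d + t • a), by rw [hf.smul_left, smul_right hf, ht, mul_zero, mul_zero],
    ?_, ?_⟩
  · rw [smul_right hf, hf.involutive, inv_mul_cancel₀ h1]
  · rw [hf.smul_left, hf.herm (d + t • a) a, ← map_mul, inv_mul_cancel₀ h1, map_one]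

/-- An isotropic vector dual to a given one inside the orthogonal of a subspace. -/
lemma exists_iso_dual {U : Submodule F (κ → F)} {x : κ → F} (hx : x ∉ U) (hxx : f x x = 0)
    (hU : ∀ u ∈ U, f u x = 0) : ∃ b, f b b = 0 ∧ f x b = 1 ∧ ∀ u ∈ U, f u b = 0 := by
  obtain ⟨d, hd, hxd⟩ := exists_orth_sep hf hx
  obtain ⟨t, ht⟩ := exists_isotropic_shift hf hxx hxd
  have h1 : f x (d + t • x) ≠ 0 := by rwa [add_right hf, smul_right hf, hxx, mul_zero, add_zero]
  refine ⟨τ (f x (d + t • x))⁻¹ • (d + t • x), by rw [hf.smul_left, smul_right hf, ht, mul_zero, mul_zero],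
    by rw [smul_right hf, hf.involutive, inv_mul_cancel₀ h1], fun u hu => ?_⟩
  rw [smul_right hf, add_right hf u, smul_right hf t u, hd u hu, hU u hu, mul_zero, add_zero, mul_zero]

/-- A vector is a combination of isotropic vectors orthogonal to whatever it and a helper are orthogonal to. -/
lemma mem_span_iso {z v : κ → F} (hvz : f v z = 0) (hv : f v v ≠ 0) {S : Set (κ → F)}
    (hS : ∀ l : F, f (z + l • v) (z + l • v) = 0 → z + l • v ∈ S) (hz : f z z ≠ 0) :
    z ∈ Submodule.span F S := by
  have hr : τ (-(f z z) / f v v) = -(f z z) / f v v := by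
    rw [map_div₀, map_neg, norm_fixed hf, norm_fixed hf]
  obtain ⟨l, l', hl, hl', hne⟩ := exists_two_norm hf hr (div_ne_zero (neg_ne_zero.2 hz) hv)
  have hiso : ∀ m : F, m * τ m = -(f z z) / f v v → f (z + m • v) (z + m • v) = 0 := fun m hm => by
    rw [norm_add_smul hf, hvz, orth_comm hf hvz, mul_zero, add_zero, mul_zero, add_zero, hm,
      div_mul_cancel₀ _ hv, add_neg_cancel]
  have h1 : z = (1 - l / (l - l')) • (z + l • v) + (l / (l - l')) • (z + l' • v) := by
    have h0 : l - l' ≠ 0 := sub_ne_zero.2 hne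
    match_scalars <;> field_simp <;> ring
  rw [h1]
  exact Submodule.add_mem _ (Submodule.smul_mem _ _ (Submodule.subset_span (hS l (hiso l hl))))
    (Submodule.smul_mem _ _ (Submodule.subset_span (hS l' (hiso l' hl'))))

/-- Isotropic vectors span. -/
lemma span_iso (h2 : 2 ≤ Fintype.card κ) (z : κ → F) :
    z ∈ Submodule.span F {y | f y y = 0} := by
  by_cases hz : f z z = 0
  · exact Submodule.subset_span hz
  have hz0 : z ≠ 0 := fun h => hz (by rw [h, zero_left hf])
  obtain ⟨v, hv, hvv⟩ := exists_aniso_perp hf (Submodule.span F {z}) (fun x hx h => by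
    obtain ⟨c, rfl⟩ := Submodule.mem_span_singleton.1 hx
    have h1 := h z (Submodule.mem_span_singleton_self z)
    rw [hf.smul_left, mul_eq_zero] at h1
    rw [h1.resolve_right hz, zero_smul]) (by rw [finrank_span_singleton hz0]; omega)
  exact mem_span_iso hf (S := {y | f y y = 0}) (hv z (Submodule.mem_span_singleton_self z)) hvv (fun _ h => h) hz

/-- Isotropic vectors orthogonal to a hyperbolic pair span the orthogonal of the pair. -/
lemma span_iso_pair (h4 : 4 ≤ Fintype.card κ) {w e r : κ → F} (hww : f w w = 0) (hee : f e e = 0)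
    (hwe : f w e = 1) (hrw : f r w = 0) (hre : f r e = 0) :
    r ∈ Submodule.span F {y | f y y = 0 ∧ f y w = 0 ∧ f y e = 0} := by
  have hew : f e w = 1 := by rw [hf.herm, hwe, map_one]
  by_cases hrr : f r r = 0
  · exact Submodule.subset_span ⟨hrr, hrw, hre⟩
  set U := Submodule.span F ({w, e, r} : Set (κ → F))
  have hwU : w ∈ U := Submodule.subset_span (by simp)
  have heU : e ∈ U := Submodule.subset_span (by simp)
  have hrU : r ∈ U := Submodule.subset_span (by simp)
  obtain ⟨v, hv, hvv⟩ := exists_aniso_perp hf U (fun x hx h => by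
    obtain ⟨a, b, c, rfl⟩ := Submodule.mem_span_triple.1 hx
    have g1 := h e heU
    have g2 := h w hwU
    have g3 := h r hrU
    simp only [hf.add_left, hf.smul_left, hwe, hee, hre, mul_one, mul_zero, add_zero] at g1
    simp only [hf.add_left, hf.smul_left, hww, hew, hrw, mul_one, mul_zero, add_zero, zero_add] at g2
    simp only [hf.add_left, hf.smul_left, orth_comm hf hrw, orth_comm hf hre, mul_zero, zero_add] at g3
    simp [g1, g2, (mul_eq_zero.1 g3).resolve_right hrr]) (by
    classical
    have h := finrank_span_le (F := F) ({w, e, r} : Finset (κ → F))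
    have := Finset.card_le_three (a := w) (b := e) (c := r)
    rw [show (({w, e, r} : Finset (κ → F)) : Set (κ → F)) = {w, e, r} by simp] at h
    change finrank F U ≤ _ at h
    omega)
  refine mem_span_iso hf (S := {y | f y y = 0 ∧ f y w = 0 ∧ f y e = 0}) (hv r hrU) hvv
    (fun l h => ⟨h, ?_, ?_⟩) hrr
  · rw [hf.add_left, hf.smul_left, hrw, hv w hwU, mul_zero, add_zero]
  · rw [hf.add_left, hf.smul_left, hre, hv e heU, mul_zero, add_zero]

/-- Isotropic vectors orthogonal to an isotropic one span its orthogonal. -/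
lemma span_iso_perp (h4 : 4 ≤ Fintype.card κ) {w z : κ → F} (hww : f w w = 0) (hwz : f w z = 0) :
    z ∈ Submodule.span F {y | f y y = 0 ∧ f w y = 0} := by
  rcases eq_or_ne w 0 with rfl | hw
  · refine Submodule.span_mono ?_ (span_iso hf (by omega) z)
    exact fun y hy => ⟨hy, zero_left hf y⟩
  obtain ⟨e, hee, hwe, hew⟩ := exists_partner hf hw hww
  set r := z - f z e • w with hr
  have hrw : f r w = 0 := by rw [hr, sub_left hf, hf.smul_left, orth_comm hf hwz, hww, mul_zero, sub_zero]
  have hre : f r e = 0 := by rw [hr, sub_left hf, hf.smul_left, hwe, mul_one, sub_self]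
  have hz : z = f z e • w + r := by rw [hr, add_sub_cancel]
  rw [hz]
  refine Submodule.add_mem _ (Submodule.smul_mem _ _ (Submodule.subset_span ⟨hww, hww⟩)) ?_
  refine Submodule.span_mono ?_ (span_iso_pair hf h4 hww hee hwe hrw hre)
  exact fun y hy => ⟨hy.1, orth_comm hf hy.2.1⟩

/-- An isotropic vector orthogonal to two given isotropic ones, outside their lines. -/
lemma exists_iso_conn (h4 : 4 ≤ Fintype.card κ) {w w' : κ → F} (hww : f w w = 0) (hww' : f w' w' = 0) :
    ∃ y, y ≠ 0 ∧ f y y = 0 ∧ f w y = 0 ∧ f w' y = 0 ∧ y ∉ Submodule.span F {w} ∧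
      y ∉ Submodule.span F {w'} := by
  classical
  set P := perp hf (({w, w'} : Finset (κ → F)) : Set (κ → F)) with hPdef
  have hperp : ∀ y ∈ P, f w y = 0 ∧ f w' y = 0 := fun y hy =>
    ⟨orth_comm hf (hy w (by simp)), orth_comm hf (hy w' (by simp))⟩
  by_cases hd : w' ∈ Submodule.span F {w}
  · -- one line
    obtain ⟨c, rfl⟩ := Submodule.mem_span_singleton.1 hd
    rcases eq_or_ne w 0 with rfl | hw
    · obtain ⟨y, -, hy, hyy⟩ := exists_iso_mem hf (⊤ : Submodule F (κ → F))
        (by rw [finrank_top, Module.finrank_fintype_fun_eq_card]; omega)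
      exact ⟨y, hy, hyy, zero_left hf y, by rw [smul_zero]; exact zero_left hf y, by simpa using hy, by simpa using hy⟩
    obtain ⟨e, hee, hwe, hew⟩ := exists_partner hf hw hww
    have hP := finrank_perp_ge hf ({w, e} : Finset (κ → F))
    obtain ⟨y, hyP, hy, hyy⟩ := exists_iso_mem hf (perp hf (({w, e} : Finset (κ → F)) : Set (κ → F))) (by
      have := Finset.card_le_two (a := w) (b := e)
      change Fintype.card κ ≤ _ at hP; omega)
    have hyw : f y w = 0 := hyP w (by simp)
    have hye : f y e = 0 := hyP e (by simp)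
    have hout : y ∉ Submodule.span F {w} := fun hm => by
      obtain ⟨r, rfl⟩ := Submodule.mem_span_singleton.1 hm
      rw [hf.smul_left, hwe, mul_one] at hye
      exact hy (by rw [hye, zero_smul])
    exact ⟨y, hy, hyy, orth_comm hf hyw, by rw [hf.smul_left, orth_comm hf hyw, mul_zero], hout,
      fun hm => hout (Submodule.span_singleton_smul_le (R := F) c w hm)⟩
  have hw' : w ∉ Submodule.span F {w'} ∨ w = 0 := by
    by_contra! h
    obtain ⟨c, hc⟩ := Submodule.mem_span_singleton.1 h.1
    refine hd (Submodule.mem_span_singleton.2 ⟨c⁻¹, ?_⟩)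
    rw [← hc, inv_smul_smul₀ (fun h0 => h.2 (by rw [← hc, h0, zero_smul]))]
  by_cases h : f w w' = 0
  · -- an isotropic line of their span
    rcases hw' with hw' | rfl
    · have h' := orth_comm hf h
      refine ⟨w + w', fun h0 => hd (Submodule.mem_span_singleton.2 ⟨-1, by
          rw [neg_one_smul]; exact neg_eq_of_add_eq_zero_right h0⟩), ?_, ?_, ?_, ?_, ?_⟩
      · rw [hf.add_left, add_right hf, add_right hf, hww, hww', h, h', add_zero, add_zero]
      · rw [add_right hf, hww, h, add_zero]
      · rw [add_right hf, h', hww', add_zero]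
      · exact fun hm => hd (by simpa using Submodule.sub_mem _ hm (Submodule.mem_span_singleton_self w))
      · exact fun hm => hw' (by simpa using Submodule.sub_mem _ hm (Submodule.mem_span_singleton_self w'))
    · have hw0 : w' ≠ 0 := fun h0 => hd (by rw [h0]; exact zero_mem _)
      obtain ⟨e, hee, hwe, hew⟩ := exists_partner hf hw0 hww'
      have hP' := finrank_perp_ge hf ({w', e} : Finset (κ → F))
      obtain ⟨y, hyP, hy, hyy⟩ := exists_iso_mem hf (perp hf (({w', e} : Finset (κ → F)) : Set (κ → F))) (by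
        have := Finset.card_le_two (a := w') (b := e)
        change Fintype.card κ ≤ _ at hP'; omega)
      refine ⟨y, hy, hyy, zero_left hf y, orth_comm hf (hyP w' (by simp)), by simpa using hy, fun hm => ?_⟩
      obtain ⟨r, rfl⟩ := Submodule.mem_span_singleton.1 hm
      have h1 : f (r • w') e = 0 := hyP e (by simp)
      rw [hf.smul_left, hwe, mul_one] at h1
      exact hy (by rw [h1, zero_smul])
  · -- a hyperbolic pair
    have hP := finrank_perp_ge hf ({w, w'} : Finset (κ → F))
    obtain ⟨y, hyP, hy, hyy⟩ := exists_iso_mem hf P (by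
      have := Finset.card_le_two (a := w) (b := w')
      change Fintype.card κ ≤ _ at hP; rw [hPdef]; omega)
    refine ⟨y, hy, hyy, (hperp y hyP).1, (hperp y hyP).2, fun hm => ?_, fun hm => ?_⟩
    · obtain ⟨r, rfl⟩ := Submodule.mem_span_singleton.1 hm
      have h1 := (hperp _ hyP).2
      rw [smul_right hf, mul_eq_zero, map_eq_zero] at h1
      exact h1.elim (fun h0 => hy (by rw [h0, zero_smul])) fun h0 => h (orth_comm hf h0)
    · obtain ⟨r, rfl⟩ := Submodule.mem_span_singleton.1 hm
      have h1 := (hperp _ hyP).1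
      rw [smul_right hf, mul_eq_zero, map_eq_zero] at h1
      exact h1.elim (fun h0 => hy (by rw [h0, zero_smul])) h

/-- The special isometries move any isotropic vector to any other. -/
lemma exists_special_map (h3 : 3 ≤ Fintype.card κ) {w w' : κ → F} (hw : w ≠ 0) (hw' : w' ≠ 0)
    (hww : f w w = 0) (hww' : f w' w' = 0) :
    ∃ g : GL κ F, Iso f g ∧ g ∈ Cfsg.Geo.specialLinear κ F ∧ (g : Matrix κ κ F) *ᵥ w = w' := by
  classical
  obtain ⟨u, hu, huu⟩ := CfsgLib.UnitCentres.exists_unit_orth hf {w'} (by simp; omega)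
  have huw : f w' u = 0 := orth_comm hf (hu w' (by simp))
  let X := Submodule.span F ({w} : Set (κ → F))
  let E := LinearEquiv.toSpanNonzeroSingleton F (κ → F) w hw
  let φ : X →ₗ[F] (κ → F) := LinearMap.toSpanSingleton F (κ → F) w' ∘ₗ E.symm.toLinearMap
  have hφ : ∀ x : X, ∃ a : F, (x : κ → F) = a • w ∧ φ x = a • w' := fun x => by
    obtain ⟨a, rfl⟩ := E.surjective x
    exact ⟨a, rfl, by simp [φ]⟩
  have hinj : Function.Injective φ := by
    exact (smul_left_injective F hw').comp E.symm.injective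
  have hB : ∀ x x' : X, f (φ x) (φ x') = f (x : κ → F) (x' : κ → F) := by
    intro x x'
    obtain ⟨a, ha, ha'⟩ := hφ x
    obtain ⟨b, hb, hb'⟩ := hφ x'
    simp [ha, hb, ha', hb', hf.smul_left, smul_right hf, hww, hww']
  have hu' : ∀ x : X, f (φ x) u = 0 := by
    intro x
    obtain ⟨a, -, ha'⟩ := hφ x
    rw [ha', hf.smul_left, huw, mul_zero]
  obtain ⟨g, hg, hgs, hgX⟩ := CfsgLib.UnitCentres.exists_iso_special hf X φ hinj hB huu hu'
  refine ⟨g, hg, hgs, ?_⟩
  obtain ⟨a, ha, ha'⟩ := hφ ⟨w, Submodule.mem_span_singleton_self w⟩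
  have h1 : a = 1 := smul_left_injective F hw (by simpa using ha.symm)
  rw [show w = ((⟨w, Submodule.mem_span_singleton_self w⟩ : X) : κ → F) from rfl, hgX, ha', h1, one_smul]

end CfsgLib.UnitTensor96
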