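import Cfsg.Agent.FormTensor89.Coeff
import Cfsg.Agent.UnitTensor96.Forms

/-!
The unipotent radical at an isotropic vector of the second unitary factor: elements known on the orthogonal
determine themselves up to a root map, and their commutators are root maps.
-/

set_option autoImplicit false
set_option linter.unusedSectionVars false

namespace CfsgLib.UnitTensor96

open Module Matrix
open CfsgLib.FormTensor89
open CfsgLib.UnitCentres (add_right smul_right zero_left zero_right sub_left sub_right orth_comm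
  upair exists_upair_eq Iso)

variable {ι κ₁ κ₂ : Type} [Fintype ι] [DecidableEq ι] [Fintype κ₁] [DecidableEq κ₁] [Fintype κ₂]
  [DecidableEq κ₂] {F : Type*} [Field F] [Finite F] {τ : F ≃+* F}
  {D : TData ι F (κ₁ → F) (κ₂ → F)} {M : Subgroup (GL ι F)}

/-- `α'` is minus the adjoint of `α`. -/
def IsAdjN (D : TData ι F (κ₁ → F) (κ₂ → F)) (α α' : (κ₁ → F) →ₗ[F] (κ₁ → F)) : Prop :=
  ∀ x u, D.f₁ (α' x) u = - D.f₁ x (α u)

/-- Minus adjoints exist. -/
lemma exists_adjN' (hu : Cfsg.Geo.IsUnitaryForm τ D.f₁) (α : (κ₁ → F) →ₗ[F] (κ₁ → F)) :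
    ∃ α', IsAdjN D α α' := by
  choose b hb using fun x => exists_upair_eq hu (upair hu x ∘ₗ α)
  have hb' : ∀ x u, D.f₁ (b x) u = D.f₁ x (α u) := fun x u => by
    have h := LinearMap.congr_fun (hb x) u
    simp only [CfsgLib.UnitCentres.upair_apply, LinearMap.comp_apply] at h
    rw [hu.herm, h, ← hu.herm]
  let L : (κ₁ → F) →ₗ[F] (κ₁ → F) :=
    { toFun := b
      map_add' := fun x y => D.f₁_ext fun u => by rw [hb', hu.add_left, hu.add_left, hb', hb']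
      map_smul' := fun c x => D.f₁_ext fun u => by rw [hb', hu.smul_left, RingHom.id_apply, hu.smul_left, hb'] }
  refine ⟨-L, fun x u => ?_⟩
  rw [LinearMap.neg_apply, ← neg_one_smul F, hu.smul_left]
  show -1 * D.f₁ (b x) u = _
  rw [hb', neg_one_mul]

variable (hu₁ : Cfsg.Geo.IsUnitaryForm τ D.f₁) (hu₂ : Cfsg.Geo.IsUnitaryForm τ D.f₂)
  (hiso : ∀ g ∈ M, Iso D.B g)
include hu₁ hu₂ hiso

/-- An element of the radical is its Siegel map up to a root map. -/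
lemma exists_defect {α α' : (κ₁ → F) →ₗ[F] (κ₁ → F)} (hadj : IsAdjN D α α') {w z : κ₂ → F} (hw : w ≠ 0)
    (hww : D.f₂ w w = 0) (hwz : D.f₂ w z = 0) (h : D.InS M w (α ∘ₗ D.ctr z)) :
    ∃ g ∈ M, ∃ e : (κ₁ → F) →ₗ[F] (κ₁ → F), ∀ X,
      (g : Matrix ι ι F) *ᵥ X = X + D.N0 α α' w z X + D.R e w X := by
  obtain ⟨g, hg, hgw, hgX⟩ := h
  have hzw := orth_comm hu₂ hwz
  set E : (ι → F) →ₗ[F] (ι → F) := (g : Matrix ι ι F).mulVecLin - LinearMap.id - D.N0 α α' w z with hE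
  have hgE : ∀ X, (g : Matrix ι ι F) *ᵥ X = X + D.N0 α α' w z X + E X := fun X => by simp [hE]
  have hEperp : ∀ X, D.ctr w X = 0 → E X = 0 := fun X hX => by simp [hE, hgX X hX, hX]
  have hctrw : ∀ X, D.ctr w ((g : Matrix ι ι F) *ᵥ X) = D.ctr w X := fun X => D.f₁_ext fun u => by
    rw [← D.B_ctr, ← D.B_ctr, ← hgw, hiso g hg, hgw]
  have hEmem : ∀ X, E X ∈ D.memb w := fun X => D.mem_memb_of_ctr hw fun y hy => D.f₁_nondeg _ fun u => by
    have h1 := hiso g hg X (D.ten u y)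
    rw [hgX (D.ten u y) (by rw [D.ctr_ten, orth_comm hu₂ hy, zero_smul]), D.B_add_right, D.B_ctr, D.B_ctr,
      D.B_ctr, hctrw, LinearMap.comp_apply, D.ctr_ten, map_smul, smul_right hu₁, ← hu₂.herm z y] at h1
    simp only [hgE, map_add, TData.N0_apply, D.ctr_ten, hy, zero_smul, zero_add, D.f₁_add_left,
      D.f₁_smul_left, show ∀ x u, D.f₁ (α' x) u = -D.f₁ x (α u) from hadj] at h1
    linear_combination h1
  obtain ⟨e₀, -, hwe₀, he₀w⟩ := exists_partner hu₂ hw hww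
  refine ⟨g, hg, D.ctr e₀ ∘ₗ E ∘ₗ D.ten.flip e₀, fun X => ?_⟩
  rw [hgE]
  congr 1
  have h1 : E X = E (D.ten (D.ctr w X) e₀) := by
    rw [← sub_eq_zero, ← map_sub]
    exact hEperp _ (by rw [map_sub, D.ctr_ten, he₀w, one_smul, sub_self])
  obtain ⟨v, hv⟩ := D.mem_memb.1 (hEmem (D.ten (D.ctr w X) e₀))
  rw [h1, TData.R_apply, LinearMap.comp_apply, LinearMap.comp_apply, LinearMap.flip_apply, ← hv, D.ctr_ten, hwe₀,
    one_smul]

/-- The commutator of two radical elements at a pair of dual vectors. -/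
lemma comm_inS {α α' β β' : (κ₁ → F) →ₗ[F] (κ₁ → F)} (hα : IsAdjN D α α') (hβ : IsAdjN D β β') {w z z' : κ₂ → F}
    (hw : w ≠ 0) (hww : D.f₂ w w = 0) (hzz : D.f₂ z z = 0) (hzz' : D.f₂ z' z' = 0) (hwz : D.f₂ w z = 0)
    (hwz' : D.f₂ w z' = 0) (h1 : D.f₂ z z' = 1) (hg : D.InS M w (α ∘ₗ D.ctr z))
    (hh : D.InS M w (β ∘ₗ D.ctr z')) : InM M (D.R (α ∘ₗ β' - β ∘ₗ α') w) := by
  obtain ⟨g, hg, e, hgX⟩ := exists_defect hu₁ hu₂ hiso hα hw hww hwz hg
  obtain ⟨h, hh, e', hhX⟩ := exists_defect hu₁ hu₂ hiso hβ hw hww hwz' hh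
  have h1' : D.f₂ z' z = 1 := by rw [hu₂.herm, h1, map_one]
  refine ⟨g * h * g⁻¹ * h⁻¹, M.mul_mem (M.mul_mem (M.mul_mem hg hh) (M.inv_mem hg)) (M.inv_mem hh), fun X => ?_⟩
  obtain ⟨Y, rfl⟩ : ∃ Y, ((h * g : GL ι F) : Matrix ι ι F) *ᵥ Y = X := ⟨_, mulVec_inv (h * g) X⟩
  rw [mul_mulVec h g, mul_mulVec, mul_mulVec, mul_mulVec, inv_mulVec, inv_mulVec, hhX, hgX, hgX, hhX]
  simp [D.ctr_ten, hww, hwz, hwz', orth_comm hu₂ hwz, orth_comm hu₂ hwz', hzz, hzz', h1, h1', map_add]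
  module

end CfsgLib.UnitTensor96
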