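import Cfsg.Agent.FormTensor89.Preserve
import Cfsg.Agent.UnitTensor96.Forms
import Cfsg.Agent.UnitTensor96.Radical

/-!
A unitary space that is the tensor product of two unitary spaces, and a group containing the special
isometries of both factors.
-/

set_option autoImplicit false
set_option linter.unusedSectionVars false

namespace CfsgLib.UnitTensor96

open Module Matrix
open CfsgLib.FormTensor89
open CfsgLib.UnitCentres (add_right smul_right zero_left zero_right sub_left sub_right orth_comm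
  upair exists_upair_eq exists_traceZero Iso uT uT_mulVec uT_iso uT_mem_specialLinear)

variable {ι κ₁ κ₂ : Type} [Fintype ι] [DecidableEq ι] [Fintype κ₁] [DecidableEq κ₁] [Fintype κ₂]
  [DecidableEq κ₂] {F : Type*} [Field F] [Finite F] {τ : F ≃+* F}

/-- The hypotheses on a group containing the special isometries of two unitary factors. -/
structure UTen (D : TData ι F (κ₁ → F) (κ₂ → F)) (τ : F ≃+* F) (M : Subgroup (GL ι F)) : Prop where
  hσ : ∀ a, D.σ a = τ a
  u₁ : Cfsg.Geo.IsUnitaryForm τ D.f₁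
  u₂ : Cfsg.Geo.IsUnitaryForm τ D.f₂
  uB : Cfsg.Geo.IsUnitaryForm τ D.B
  iso : ∀ g ∈ M, Iso D.B g
  l₁ : ∀ a : GL κ₁ F, Iso D.f₁ a → a ∈ Cfsg.Geo.specialLinear κ₁ F →
    ∃ g ∈ M, ∀ u z, (g : Matrix ι ι F) *ᵥ D.ten u z = D.ten ((a : Matrix κ₁ κ₁ F) *ᵥ u) z
  l₂ : ∀ b : GL κ₂ F, Iso D.f₂ b → b ∈ Cfsg.Geo.specialLinear κ₂ F →
    ∃ g ∈ M, ∀ u z, (g : Matrix ι ι F) *ᵥ D.ten u z = D.ten u ((b : Matrix κ₂ κ₂ F) *ᵥ z)
  two₁ : 2 ≤ Fintype.card κ₁
  four₂ : 4 ≤ Fintype.card κ₂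
  gap : Fintype.card κ₁ < Fintype.card κ₂
  small : (∃ k : F, τ k = k ∧ k ≠ 0 ∧ k ≠ 1) ∨ 3 ≤ Fintype.card κ₁

/-- An invertible matrix as a linear equivalence. -/
def eqv {κ : Type} [Fintype κ] [DecidableEq κ] (a : GL κ F) : (κ → F) ≃ₗ[F] (κ → F) :=
  LinearEquiv.ofLinearMap (a : Matrix κ κ F).mulVecLin ((a⁻¹ : GL κ F) : Matrix κ κ F).mulVecLin
    (LinearMap.ext fun x => mulVec_inv a x) (LinearMap.ext fun x => inv_mulVec a x)

@[simp] lemma eqv_apply {κ : Type} [Fintype κ] [DecidableEq κ] (a : GL κ F) (x : κ → F) :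
    eqv a x = (a : Matrix κ κ F) *ᵥ x := rfl

variable {D : TData ι F (κ₁ → F) (κ₂ → F)} {M : Subgroup (GL ι F)} (H : UTen D τ M)
include H

lemma dims : finrank F (κ₁ → F) < finrank F (κ₂ → F) := by
  rw [Module.finrank_fintype_fun_eq_card, Module.finrank_fintype_fun_eq_card]; exact H.gap

lemma smul_right₁ (c : F) (v x : κ₁ → F) : D.f₁ v (c • x) = τ c * D.f₁ v x := smul_right H.u₁ c v x

lemma lift₁_of {a : GL κ₁ F} (hiso : Iso D.f₁ a) (hs : a ∈ Cfsg.Geo.specialLinear κ₁ F) :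
    D.Lift₁ M (eqv a) := by
  obtain ⟨g, hg, hgX⟩ := H.l₁ a hiso hs
  exact ⟨hiso, g, hg, hgX⟩

lemma lift₂_of {b : GL κ₂ F} (hiso : Iso D.f₂ b) (hs : b ∈ Cfsg.Geo.specialLinear κ₂ F) :
    D.Lift₂ M (eqv b) := by
  obtain ⟨g, hg, hgX⟩ := H.l₂ b hiso hs
  exact ⟨hiso, g, hg, hgX⟩

/-- The transvections of the first factor. -/
lemma exists_t₁ {a : κ₁ → F} (ha : D.f₁ a a = 0) {k : F} (hk : k + τ k = 0) :
    ∃ t : (κ₁ → F) ≃ₗ[F] (κ₁ → F), D.Lift₁ M t ∧ ∀ u, t u = u + (k * D.f₁ u a) • a :=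
  ⟨_, lift₁_of H (uT_iso H.u₁ ha hk) (uT_mem_specialLinear H.u₁ ha k), uT_mulVec H.u₁ ha k⟩

lemma exists_move₂ {w w' : κ₂ → F} (hw : w ≠ 0) (hw' : w' ≠ 0) (hww : D.f₂ w w = 0)
    (hww' : D.f₂ w' w' = 0) : ∃ b, D.Lift₂ M b ∧ b w = w' := by
  obtain ⟨g, hg, hgs, hgw⟩ := exists_special_map H.u₂ (by have := H.four₂; omega) hw hw' hww hww'
  exact ⟨_, lift₂_of H hg hgs, hgw⟩

/-- The root element with a scalar coefficient. -/
lemma root_elem {c : F} (hc : c + τ c = 0) {w : κ₂ → F} (hw : D.f₂ w w = 0) :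
    InM M (D.R (c • LinearMap.id) w) := by
  obtain ⟨g, hg, hgX⟩ := H.l₂ _ (uT_iso H.u₂ hw hc) (uT_mem_specialLinear H.u₂ hw c)
  refine ⟨g, hg, fun X => ?_⟩
  refine LinearMap.congr_fun (f := (g : Matrix ι ι F).mulVecLin)
    (g := LinearMap.id + D.R (c • LinearMap.id) w) (LinearMap.ext_on D.ten_span ?_) X
  rintro _ ⟨u, z, rfl⟩
  simp [hgX, uT_mulVec, D.ctr_ten, smul_smul, mul_comm]

/-- A map commuting with all transvections up to scalars is a scalar. -/
lemma scalar_of_commute (α : (κ₁ → F) ≃ₗ[F] (κ₁ → F)) (c : F) (hc : c ≠ 0)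
    (hα : ∀ x y, D.f₁ (α x) (α y) = c * D.f₁ x y) (δ : (κ₁ → F) →ₗ[F] (κ₁ → F))
    (hδ : ∀ a, D.Lift₁ M a → D.Lift₁ M ((α.symm.trans a).trans α) →
      ∃ l : F, ∀ u, δ (a u) - a (δ u) = l • a u) : ∃ l : F, ∀ u, δ u = l • u := by
  obtain ⟨a₀, -, ha₀, ha₀a₀⟩ := exists_iso_mem H.u₁ (⊤ : Submodule F (κ₁ → F))
    (by rw [finrank_top, Module.finrank_fintype_fun_eq_card]; exact H.two₁)
  have hcσ : τ c = c := by
    obtain ⟨e, -, -, hea⟩ := exists_partner H.u₁ ha₀ ha₀a₀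
    obtain ⟨-, -, hae, -⟩ := exists_partner H.u₁ ha₀ ha₀a₀
    have h1 := H.u₁.herm (α a₀) (α e)
    rw [hα, hα, map_mul, ← H.u₁.herm] at h1
    have h2 : D.f₁ a₀ e ≠ 0 := fun h0 => one_ne_zero (by rw [← hea, H.u₁.herm, h0, map_zero])
    exact (mul_right_cancel₀ h2 h1).symm
  obtain ⟨ε, hε, hεσ⟩ := exists_traceZero H.u₁
  have key : ∀ a, D.f₁ a a = 0 → ∀ k, k + τ k = 0 →
      ∃ l : F, ∀ u, k • (D.f₁ u a • δ a - D.f₁ (δ u) a • a) = l • (u + (k * D.f₁ u a) • a) := by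
    intro a ha k hk
    obtain ⟨t, ht, htu⟩ := exists_t₁ H ha hk
    obtain ⟨t', ht', htu'⟩ := exists_t₁ H (a := α a) (by rw [hα, ha, mul_zero]) (k := k / c)
      (by rw [map_div₀, hcσ, ← add_div, hk, zero_div])
    have he : (α.symm.trans t).trans α = t' := by
      refine LinearEquiv.ext fun u => ?_
      obtain ⟨u, rfl⟩ := α.surjective u
      simp [htu, htu', hα]
      congr 1
      field_simp
    obtain ⟨l, hl⟩ := hδ t ht (he.symm ▸ ht')
    refine ⟨l, fun u => ?_⟩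
    rw [← htu, ← hl u, htu, htu, map_add, map_smul]
    module
  have eig : ∀ a, D.f₁ a a = 0 → ∀ u, D.f₁ u a • δ a = D.f₁ (δ u) a • a := by
    intro a ha
    rcases eq_or_ne a 0 with rfl | ha0
    · intro u; rw [map_zero, smul_zero, smul_zero]
    obtain ⟨l, hl⟩ := key a ha ε hεσ
    obtain ⟨e, -, -, hea⟩ := exists_partner H.u₁ ha0 ha
    suffices hl0 : l = 0 by
      intro u
      have h := hl u
      rw [hl0, zero_smul, smul_eq_zero, sub_eq_zero] at h
      exact h.resolve_left hε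
    rcases H.small with ⟨k, hkσ, hk0, hk1⟩ | h3
    · obtain ⟨m, hm⟩ := key a ha (k * ε) (by rw [map_mul, hkσ, ← mul_add, hεσ, mul_zero])
      have e1 : ∀ v, (k * l - m) • v + ((k * l - m * k) * (ε * D.f₁ v a)) • a = 0 := fun v => by
        have h1 := hm v
        rw [mul_smul, hl v] at h1
        linear_combination (norm := module) h1
      have ea := e1 a
      rw [ha, mul_zero, mul_zero, zero_smul, add_zero, smul_eq_zero, sub_eq_zero] at ea
      have hkm := ea.resolve_right ha0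
      have ee := e1 e
      rw [hkm, sub_self, zero_smul, zero_add, smul_eq_zero, mul_eq_zero, hea, mul_one] at ee
      have h2 := (ee.resolve_right ha0).resolve_right hε
      rw [← hkm] at h2
      rcases mul_eq_zero.1 (show (k * l) * (1 - k) = 0 by linear_combination h2) with h | h
      · exact (mul_eq_zero.1 h).resolve_left hk0
      · exact absurd (sub_eq_zero.1 h).symm hk1
    · obtain ⟨u, hu, hu0⟩ := Submodule.exists_mem_ne_zero_of_ne_bot
        (LinearMap.ker_ne_bot_of_finrank_lt (f := (upair H.u₁ a).prod (upair H.u₁ a ∘ₗ δ))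
          (by simp; omega))
      simp only [LinearMap.mem_ker, LinearMap.prod_apply, Prod.ext_iff] at hu
      have h := hl u
      rw [show D.f₁ u a = 0 from hu.1, show D.f₁ (δ u) a = 0 from hu.2] at h
      simp at h
      exact (smul_eq_zero.1 h.symm).resolve_right hu0
  obtain ⟨e, hee, hae, hea⟩ := exists_partner H.u₁ ha₀ ha₀a₀
  set l := D.f₁ (δ e) a₀
  have hl₀ : δ a₀ = l • a₀ := by have := eig a₀ ha₀a₀ e; rwa [hea, one_smul] at this
  have same : ∀ a b (k : F), D.f₁ a a = 0 → D.f₁ b b = 0 → D.f₁ b a ≠ 0 → δ b = k • b → δ a = k • a := by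
    intro a b k ha hb hba hδb
    have h := eig a ha b
    rw [hδb, H.u₁.smul_left, mul_comm, mul_smul] at h
    exact smul_right_injective _ hba h
  have hle : δ e = l • e := same e a₀ l hee ha₀a₀ (by rw [hae]; exact one_ne_zero) hl₀
  have hiso : ∀ a, D.f₁ a a = 0 → δ a = l • a := by
    intro a ha
    by_cases h1 : D.f₁ e a = 0
    · by_cases h2 : D.f₁ a₀ a = 0
      · have ha' : D.f₁ (a + a₀) (a + a₀) = 0 := by
          rw [H.u₁.add_left, add_right H.u₁, add_right H.u₁, ha, ha₀a₀, h2, orth_comm H.u₁ h2]; ring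
        have h3 := same (a + a₀) e l ha' hee (by rw [add_right H.u₁, h1, hea, zero_add]; exact one_ne_zero) hle
        rw [map_add, smul_add, hl₀] at h3
        exact add_right_cancel h3
      · exact same a a₀ l ha ha₀a₀ h2 hl₀
    · exact same a e l ha hee h1 hle
  refine ⟨l, fun u => ?_⟩
  refine Submodule.span_induction (p := fun u _ => δ u = l • u) (fun y hy => hiso y hy)
    (by rw [map_zero, smul_zero]) (fun x y _ _ hx hy => by rw [map_add, hx, hy, smul_add])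
    (fun c x _ hx => by rw [map_smul, hx, smul_comm]) (span_iso H.u₁ H.two₁ u)

/-- Root coefficients are radical coefficients. -/
lemma isX_of_isT {θ : (κ₁ → F) →ₗ[F] (κ₁ → F)} (hθ : D.IsT M θ) : D.IsX M θ := by
  intro w z hw hz hwz
  have hz' := orth_comm H.u₂ hwz
  have hsum : D.f₂ (w + z) (w + z) = 0 := by
    rw [D.f₂_add_left, TData.f₂_add_right, TData.f₂_add_right, hw, hz, hwz, hz', add_zero, add_zero]
  obtain ⟨g₁, h₁, e₁⟩ := hθ (w + z) hsum
  obtain ⟨g₂, h₂, e₂⟩ := (hθ w hw).neg fun X => D.R_sq hw X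
  obtain ⟨g₃, h₃, e₃⟩ := (hθ z hz).neg fun X => D.R_sq hz X
  refine ⟨g₁ * g₂ * g₃, M.mul_mem (M.mul_mem h₁ h₂) h₃, fun u => ?_, fun X hX => ?_⟩
  · rw [mul_mulVec, mul_mulVec, e₃, LinearMap.neg_apply, TData.R_apply]
    simp [D.ctr_ten, hwz, hw, e₂, e₁, TData.f₂_add_right]
  · rw [mul_mulVec, mul_mulVec, e₃, LinearMap.neg_apply, e₂, LinearMap.neg_apply, TData.R_apply, TData.R_apply,
      e₁, TData.R_apply]
    simp [D.ctr_add, hX, D.ctr_ten, hz', hz, map_add]
    module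

/-- The scalar radical coefficient. -/
lemma inS_id {w z : κ₂ → F} (hw : D.f₂ w w = 0) (hz : D.f₂ z z = 0) (hwz : D.f₂ w z = 0) :
    D.InS M w (D.ctr z) := by
  obtain ⟨ε, hε, hεσ⟩ := exists_traceZero H.u₁
  have hT : D.IsT M (ε • LinearMap.id) := fun w hw => root_elem H hεσ hw
  have h := isX_of_isT H hT w ((τ ε)⁻¹ • z) hw
    (by rw [H.u₂.smul_left, smul_right H.u₂, hz, mul_zero, mul_zero]) (by rw [smul_right H.u₂, hwz, mul_zero])
  refine h.congr fun X _ => ?_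
  rw [LinearMap.comp_apply, LinearMap.smul_apply, LinearMap.id_apply, D.ctr_smul, H.hσ, map_inv₀,
    H.u₁.involutive, smul_inv_smul₀ hε]

/-- A radical element at one pair gives a radical coefficient everywhere. -/
lemma ext_inS {α : (κ₁ → F) →ₗ[F] (κ₁ → F)} {w z : κ₂ → F} (hw : w ≠ 0) (hww : D.f₂ w w = 0)
    (hzz : D.f₂ z z = 0) (hwz : D.f₂ w z = 0) (hind : z ∉ Submodule.span F {w})
    (h : D.InS M w (α ∘ₗ D.ctr z)) : D.IsX M α := by
  obtain ⟨α', hα'⟩ := exists_adjN' H.u₁ α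
  obtain ⟨z', hz'z', hzz', hU⟩ := exists_iso_dual H.u₂ hind hzz (fun u hu => by
    obtain ⟨r, rfl⟩ := Submodule.mem_span_singleton.1 hu
    rw [H.u₂.smul_left, hwz, mul_zero])
  have hwz' := hU w (Submodule.mem_span_singleton_self w)
  have hθ : ∀ l : F, D.IsX M (-(τ l • α) - l • α') := fun l => by
    have hid : D.InS M w ((l • LinearMap.id) ∘ₗ D.ctr z') :=
      (inS_id H hww (z := τ l • z') (by rw [H.u₂.smul_left, smul_right H.u₂, hz'z', mul_zero, mul_zero])
        (by rw [smul_right H.u₂, hwz', mul_zero])).congr fun X _ => by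
          rw [D.ctr_smul, H.hσ, H.u₁.involutive]; rfl
    have hadj : IsAdjN D (l • LinearMap.id) (-τ l • LinearMap.id) := fun x u => by
      rw [LinearMap.smul_apply, LinearMap.smul_apply, H.u₁.smul_left, smul_right H.u₁]
      simp only [LinearMap.id_apply]; ring
    have hT := TData.isT_of_trans₁ H.iso (fun _ _ hw hw' hww hww' => exists_move₂ H hw hw' hww hww') hw hww
      (comm_inS H.u₁ H.u₂ H.iso hα' hadj hw hww hzz hz'z' hwz hwz' hzz' h hid)
    refine fun w z hw hz hwz => (isX_of_isT H hT w z hw hz hwz).congr fun X _ => ?_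
    simp only [LinearMap.comp_apply, LinearMap.sub_apply, LinearMap.smul_apply, LinearMap.neg_apply,
      LinearMap.id_apply, map_smul, neg_smul, map_neg]
  obtain ⟨c, hc⟩ : ∃ c, τ c ≠ c := by
    by_contra! h0; exact H.u₁.ne_refl (RingEquiv.ext h0)
  refine fun w z hw hz hwz => ((((hθ 1).smul c).sub (hθ c)).smul (τ c - c)⁻¹ w z hw hz hwz).congr fun X _ => ?_
  have hne : τ c - c ≠ 0 := sub_ne_zero.2 hc
  simp only [LinearMap.comp_apply, LinearMap.smul_apply, LinearMap.sub_apply, LinearMap.neg_apply, map_one]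
  match_scalars <;> field_simp <;> ring

/-- The hypotheses of the engine. -/
theorem hyp : D.Hyp M where
  iso := H.iso
  root := by
    obtain ⟨ε, hε, hεσ⟩ := exists_traceZero H.u₁
    exact ⟨ε, hε, fun w hw => root_elem H hεσ hw⟩
  trans₁ w w' hw hw' hww hww' := exists_move₂ H hw hw' hww hww'
  ext α w z hw hww hzz hwz hind h := ext_inS H hw hww hzz hwz hind h
  span_perp w hw z hz := span_iso_perp H.u₂ (by have := H.four₂; omega) hw hz
  conn w w' hw hw' := exists_iso_conn H.u₂ H.four₂ hw hw'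
  scal := scalar_of_commute H
  two := by
    obtain ⟨a, -, ha, haa⟩ := exists_iso_mem H.u₁ (⊤ : Submodule F (κ₁ → F))
      (by rw [finrank_top, Module.finrank_fintype_fun_eq_card]; exact H.two₁)
    obtain ⟨-, y, hy⟩ := H.u₁.nondegenerate a ha
    exact ⟨a, y, hy⟩

/-- Adjoints exist. -/
lemma exists_adjoint (α : (κ₁ → F) →ₗ[F] (κ₁ → F)) :
    ∃ α' : (κ₁ → F) →ₗ[F] (κ₁ → F), ∀ x u, D.f₁ (α' x) u = D.f₁ x (α u) := by
  choose b hb using fun x => exists_upair_eq H.u₁ (upair H.u₁ x ∘ₗ α)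
  have hb' : ∀ x u, D.f₁ (b x) u = D.f₁ x (α u) := fun x u => by
    have h := LinearMap.congr_fun (hb x) u
    simp only [CfsgLib.UnitCentres.upair_apply, LinearMap.comp_apply] at h
    rw [H.u₁.herm, h, ← H.u₁.herm]
  refine ⟨{ toFun := b, map_add' := fun x y => D.f₁_ext fun u => ?_, map_smul' := fun c x => D.f₁_ext fun u => ?_ },
    hb'⟩
  · rw [hb', H.u₁.add_left, H.u₁.add_left, hb', hb']
  · rw [hb', H.u₁.smul_left, RingHom.id_apply, H.u₁.smul_left, hb']

end CfsgLib.UnitTensor96
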