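import Cfsg.Agent.UnitTensor96.Coeff

/-!
With all rank-one coefficients every isotropic vector is the centre of transvections in the group.
-/

set_option autoImplicit false
set_option linter.unusedSectionVars false

namespace CfsgLib.UnitTensor96

open Module Matrix
open CfsgLib.FormTensor89
open CfsgLib.UnitCentres (add_right smul_right zero_left zero_right sub_left sub_right orth_comm
  exists_trace_one exists_upair_eq upair Iso Centre uT uT_mulVec uT_iso)
open CfsgLib.TransvGL (ext_mulVec)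

variable {ι κ₁ κ₂ : Type} [Fintype ι] [DecidableEq ι] [Fintype κ₁] [DecidableEq κ₁] [Fintype κ₂]
  [DecidableEq κ₂] {F : Type*} [Field F] [Finite F] {τ : F ≃+* F}
  {D : TData ι F (κ₁ → F) (κ₂ → F)} {M : Subgroup (GL ι F)}
  (H : UTen D τ M) (hns : ¬ D.OnlyScalars M)
include H hns

lemma isT_pair (x y : κ₁ → F) : D.IsT M (D.rk x y - D.rk y x) := by
  have h := isT_comm H (TData.isX_id (hyp H)) (α' := -LinearMap.id)
    (fun v u => by rw [LinearMap.neg_apply, LinearMap.id_apply, LinearMap.id_apply, ← zero_sub v, sub_left H.u₁,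
      zero_left H.u₁, zero_sub])
    (isX_rk H hns x y) (adjN_rk H x y)
  refine fun w hw => (h w hw).congr fun X => ?_
  simp [sub_eq_add_neg, add_comm]

lemma isT_diag {c : F} (hc : c + τ c = 0) (y : κ₁ → F) : D.IsT M (c • D.rk y y) := by
  obtain ⟨d, hd⟩ := exists_trace_one H.u₁
  have hcc : τ c = -c := by linear_combination hc
  have h := isT_pair H hns ((c * d) • y) y
  refine fun w hw => (h w hw).congr fun X => ?_
  simp only [rk_smul_left H, rk_smul_right H, map_mul, hcc, TData.R_apply, LinearMap.sub_apply, LinearMap.smul_apply,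
    map_sub, map_smul]
  rw [← sub_smul, show c * d - -c * τ d = c by linear_combination c * hd]

/-- A skew coefficient with a prescribed value. -/
lemma exists_isT_map {p q : κ₁ → F} (hq : q ≠ 0) (hpq : D.f₁ p q + D.f₁ q p = 0) :
    ∃ θ, D.IsT M θ ∧ θ q = -p := by
  obtain ⟨-, y₀, hy₀⟩ := H.u₁.nondegenerate q hq
  set y := τ (D.f₁ q y₀)⁻¹ • y₀
  have hy : D.f₁ q y = 1 := by rw [smul_right H.u₁, H.u₁.involutive, inv_mul_cancel₀ hy₀]
  refine ⟨(D.rk y p - D.rk p y) - D.f₁ q p • D.rk y y, TData.IsT.sub (isT_pair H hns y p)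
    (isT_diag H hns (by rw [← H.u₁.herm]; linear_combination hpq) y), ?_⟩
  simp [hy]

/-- Isotropic vectors are centres. -/
theorem centre {Z : ι → F} (hZ : D.B Z Z = 0) : Centre H.uB M Z := by
  rcases eq_or_ne Z 0 with rfl | hZ0
  · refine ⟨hZ, fun c _ => ?_⟩
    rw [show uT H.uB hZ c = 1 from ext_mulVec fun X => by simp [uT_mulVec]]
    exact M.one_mem
  obtain ⟨w, hw, hww, hq⟩ : ∃ w, w ≠ 0 ∧ D.f₂ w w = 0 ∧ D.ctr w Z ≠ 0 := by
    by_contra! h
    refine hZ0 (D.ctr_ext Z fun z => ?_)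
    refine Submodule.span_induction (p := fun z _ => D.ctr z Z = 0) (fun y hy => ?_) (D.ctr_zero Z)
      (fun a b _ _ ha hb => by rw [D.ctr_add, ha, hb, add_zero])
      (fun c a _ ha => by rw [D.ctr_smul, ha, smul_zero]) (span_iso H.u₂ (by have := H.four₂; omega) z)
    rcases eq_or_ne y 0 with rfl | hy0
    · exact D.ctr_zero Z
    · exact h y hy0 hy
  obtain ⟨e, hee, hwe, hew⟩ := exists_partner H.u₂ hw hww
  set q := D.ctr w Z with hqdef
  let R : (ι → F) →ₗ[F] (ι → F) :=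
    LinearMap.id - D.ten.flip w ∘ₗ D.ctr e - D.ten.flip e ∘ₗ D.ctr w
  -- the part orthogonal to the pair can be removed
  have move : ∀ Y, ∀ Z' : ι → F, D.ctr w Z' = q → ∃ g ∈ M, D.ctr w ((g : Matrix ι ι F) *ᵥ Z') = q ∧
      (g : Matrix ι ι F) *ᵥ Z' - Z' - R Y ∈ D.memb w := by
    have gen : ∀ (u : κ₁ → F) (z : κ₂ → F), D.f₂ z z = 0 → D.f₂ z w = 0 → D.f₂ z e = 0 → ∀ Z' : ι → F,
        D.ctr w Z' = q → ∃ g ∈ M, D.ctr w ((g : Matrix ι ι F) *ᵥ Z') = q ∧
          (g : Matrix ι ι F) *ᵥ Z' - Z' - D.ten u z ∈ D.memb w := by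
      intro u z hzz hzw hze Z' hZ'
      rcases eq_or_ne z 0 with rfl | hz
      · exact ⟨1, M.one_mem, by simpa using hZ', by simp⟩
      have hzind : z ∉ Submodule.span F {w} := fun hm => by
        obtain ⟨r, rfl⟩ := Submodule.mem_span_singleton.1 hm
        rw [H.u₂.smul_left, hwe, mul_one] at hze
        exact hz (by rw [hze, zero_smul])
      obtain ⟨-, y₀, hy₀⟩ := H.u₁.nondegenerate q hq
      set y := τ (D.f₁ q y₀)⁻¹ • y₀
      have hy : D.f₁ q y = 1 := by rw [smul_right H.u₁, H.u₁.involutive, inv_mul_cancel₀ hy₀]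
      obtain ⟨g, hg, hgX⟩ := exact_elem H (isX_rk H hns y u) (adjN_rk H y u) hw hww hzz
        (orth_comm H.u₂ hzw) hzind
      refine ⟨g⁻¹, M.inv_mem hg, ?_⟩
      have hgi : ((g⁻¹ : GL ι F) : Matrix ι ι F) *ᵥ Z' = Z' - D.N0 (D.rk y u) (-D.rk u y) w z Z' :=
        mulVec_injective g <| by
          dsimp only
          rw [mulVec_inv, hgX]
          simp [D.ctr_ten, hww, hzz, hzw, orth_comm H.u₂ hzw]
      rw [hgi]
      refine ⟨by simp [hZ', D.ctr_ten, hww, hzw], ?_⟩
      simp only [TData.N0_apply, LinearMap.neg_apply, TData.rk_apply, hZ', hy, one_smul, map_neg,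
        LinearMap.neg_apply, map_smul, LinearMap.smul_apply]
      convert (D.memb w).smul_mem (-(D.f₁ (D.ctr z Z') u)) (D.ten_mem_memb y w) using 1
      module
    have key : ∀ Y ∈ Submodule.span F {X | ∃ u z, D.ten u z = X}, ∀ c : F, ∀ Z' : ι → F, D.ctr w Z' = q →
        ∃ g ∈ M, D.ctr w ((g : Matrix ι ι F) *ᵥ Z') = q ∧
          (g : Matrix ι ι F) *ᵥ Z' - Z' - R (c • Y) ∈ D.memb w := by
      intro Y hY
      refine Submodule.span_induction (p := fun Y _ => ∀ c : F, ∀ Z' : ι → F, D.ctr w Z' = q → ∃ g ∈ M,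
        D.ctr w ((g : Matrix ι ι F) *ᵥ Z') = q ∧ (g : Matrix ι ι F) *ᵥ Z' - Z' - R (c • Y) ∈ D.memb w)
        ?_ ?_ ?_ ?_ hY
      · rintro _ ⟨u, v, rfl⟩ c Z' hZ'
        set r := v - D.f₂ v e • w - D.f₂ v w • e with hr
        have hR : R (c • D.ten u v) = D.ten (c • u) r := by
          simp [R, hr, D.ctr_ten, map_sub, map_smul, smul_sub, smul_smul, mul_comm]
        rw [hR]
        have hrw : D.f₂ r w = 0 := by simp [hr, sub_left H.u₂, H.u₂.smul_left, hww, hew]
        have hre : D.f₂ r e = 0 := by simp [hr, sub_left H.u₂, H.u₂.smul_left, hee, hwe]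
        refine Submodule.span_induction (p := fun r _ => ∀ u, ∀ Z' : ι → F, D.ctr w Z' = q → ∃ g ∈ M,
          D.ctr w ((g : Matrix ι ι F) *ᵥ Z') = q ∧ (g : Matrix ι ι F) *ᵥ Z' - Z' - D.ten u r ∈ D.memb w)
          (fun z hz u => gen u z hz.1 hz.2.1 hz.2.2)
          (fun u Z' hZ' => ⟨1, M.one_mem, by simpa using hZ', by simp⟩)
          (fun a b _ _ ha hb u Z' hZ' => ?_) (fun c a _ ha u Z' hZ' => ?_)
          (span_iso_pair H.u₂ (by have := H.four₂; omega) hww hee hwe hrw hre) (c • u) Z' hZ'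
        · obtain ⟨g, hg, h1, h2⟩ := ha u Z' hZ'
          obtain ⟨g', hg', h1', h2'⟩ := hb u _ h1
          refine ⟨g' * g, M.mul_mem hg' hg, by rw [mul_mulVec, h1'], ?_⟩
          rw [mul_mulVec, map_add]
          convert (D.memb w).add_mem h2 h2' using 1
          abel
        · obtain ⟨g, hg, h1, h2⟩ := ha (c • u) Z' hZ'
          refine ⟨g, hg, h1, ?_⟩
          rwa [map_smul, ← LinearMap.smul_apply, ← map_smul]
      · intro c Z' hZ'
        exact ⟨1, M.one_mem, by simpa using hZ', by simp⟩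
      · intro a b _ _ ha hb c Z' hZ'
        obtain ⟨g, hg, h1, h2⟩ := ha c Z' hZ'
        obtain ⟨g', hg', h1', h2'⟩ := hb c _ h1
        refine ⟨g' * g, M.mul_mem hg' hg, by rw [mul_mulVec, h1'], ?_⟩
        rw [mul_mulVec, smul_add, map_add]
        convert (D.memb w).add_mem h2 h2' using 1
        abel
      · intro d a _ ha c Z' hZ'
        rw [smul_smul]; exact ha (c * d) Z' hZ'
    intro Y Z' hZ'
    simpa using key Y (by rw [D.ten_span]; trivial) 1 Z' hZ'
  obtain ⟨g, hg, hgq, hgZ⟩ := move (-Z) Z rfl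
  obtain ⟨v, hv⟩ := D.mem_memb.1 hgZ
  set Z₁ := (g : Matrix ι ι F) *ᵥ Z
  set p := v + D.ctr e Z with hp
  have hZ₁ : Z₁ = D.ten p w + D.ten q e := by
    have : R (-Z) = -Z + D.ten (D.ctr e Z) w + D.ten q e := by simp [R, hqdef]
    rw [this, eq_sub_iff_add_eq, eq_sub_iff_add_eq] at hv
    rw [← hv, hp, map_add, LinearMap.add_apply]
    abel
  have hpq : D.f₁ p q + D.f₁ q p = 0 := by
    have h := H.iso g hg Z Z
    rw [hZ] at h
    change D.B Z₁ Z₁ = 0 at h
    rw [hZ₁, D.B_add_right, D.B_ctr, D.B_ctr] at h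
    simp only [map_add, D.ctr_ten, hww, hee, hwe, hew, zero_smul, one_smul, zero_add, add_zero] at h
    linear_combination h
  obtain ⟨θ, hθ, hθq⟩ := exists_isT_map H hns hq hpq
  obtain ⟨g', hg', hg'X⟩ := hθ w hww
  have hZ₂ : (g' : Matrix ι ι F) *ᵥ Z₁ = D.ten q e := by
    rw [hg'X, hZ₁, TData.R_apply, map_add (D.ctr w), D.ctr_ten, D.ctr_ten, hww, hew, zero_smul, one_smul, zero_add, hθq,
      map_neg, LinearMap.neg_apply]
    abel
  have hB : D.B (D.ten q e) (D.ten q e) = 0 := by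
    rw [D.B_ctr, D.ctr_ten, hee, zero_smul]; exact zero_left H.u₁ q
  have hcen : Centre H.uB M (D.ten q e) := ⟨hB, fun c hc => by
    obtain ⟨r, hr, hrX⟩ := isT_diag H hns hc q e hee
    have : uT H.uB hB c = r := ext_mulVec fun X => by
      rw [uT_mulVec, hrX, TData.R_apply, LinearMap.smul_apply, TData.rk_apply, smul_smul, map_smul,
        LinearMap.smul_apply, D.B_ctr]
    rw [this]; exact hr⟩
  have := hcen.image (M.inv_mem (M.mul_mem hg' hg)) (H.iso _ (M.inv_mem (M.mul_mem hg' hg)))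
  rwa [← hZ₂, ← mul_mulVec g' g, inv_mulVec] at this

end CfsgLib.UnitTensor96
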