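import Cfsg.Agent.UnitTensor96.Basic
import Cfsg.Agent.FormTensor89.Coeff

/-!
The coefficients of the radicals form an algebra; a non-scalar one gives all rank-one maps.
-/

set_option autoImplicit false
set_option linter.unusedSectionVars false

namespace CfsgLib.UnitTensor96

open Module Matrix
open CfsgLib.FormTensor89
open CfsgLib.UnitCentres (add_right smul_right zero_left zero_right sub_left sub_right orth_comm
  uT uT_mulVec uT_iso uT_mem_specialLinear exists_traceZero exists_trace exists_trace_one exists_orth_sep norm_fixed norm_add_smul Iso)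

variable {ι κ₁ κ₂ : Type} [Fintype ι] [DecidableEq ι] [Fintype κ₁] [DecidableEq κ₁] [Fintype κ₂]
  [DecidableEq κ₂] {F : Type*} [Field F] [Finite F] {τ : F ≃+* F}
  {D : TData ι F (κ₁ → F) (κ₂ → F)} {M : Subgroup (GL ι F)}

variable (H : UTen D τ M)
include H

lemma exists_adjN (α : (κ₁ → F) →ₗ[F] (κ₁ → F)) : ∃ α', IsAdjN D α α' := exists_adjN' H.u₁ α

lemma adjN_symm {α α' : (κ₁ → F) →ₗ[F] (κ₁ → F)} (h : IsAdjN D α α') : IsAdjN D α' α := fun x u => by
  rw [H.u₁.herm (α x) u, eq_comm, H.u₁.herm x, h, map_neg, neg_neg]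

lemma adjN_unique {α α₁ α₂ : (κ₁ → F) →ₗ[F] (κ₁ → F)} (h₁ : IsAdjN D α α₁) (h₂ : IsAdjN D α α₂) : α₁ = α₂ :=
  LinearMap.ext fun x => D.f₁_ext fun v => by rw [h₁, h₂]

lemma adjN_smul {α α' : (κ₁ → F) →ₗ[F] (κ₁ → F)} (h : IsAdjN D α α') (c : F) :
    IsAdjN D (c • α) (τ c • α') := fun x u => by
  rw [LinearMap.smul_apply, LinearMap.smul_apply, H.u₁.smul_left, smul_right H.u₁, h]; ring

lemma adjN_rk (x y : κ₁ → F) : IsAdjN D (D.rk x y) (-D.rk y x) := fun v u => by
  rw [LinearMap.neg_apply, TData.rk_apply, TData.rk_apply, ← neg_smul, H.u₁.smul_left, smul_right H.u₁,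
    ← H.u₁.herm]
  ring

lemma rk_comp (x y x' y' : κ₁ → F) : D.rk x y ∘ₗ D.rk x' y' = D.f₁ x' y • D.rk x y' :=
  LinearMap.ext fun u => by simp [D.f₁_smul_left, smul_smul, mul_comm]

lemma rk_smul_right (x y : κ₁ → F) (c : F) : D.rk x (c • y) = τ c • D.rk x y :=
  LinearMap.ext fun u => by simp [smul_right H.u₁, smul_smul]

lemma rk_add_right (x y y' : κ₁ → F) : D.rk x (y + y') = D.rk x y + D.rk x y' :=
  LinearMap.ext fun u => by simp [D.f₁_add_right, add_smul]

lemma rk_smul_left (x y : κ₁ → F) (c : F) : D.rk (c • x) y = c • D.rk x y :=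
  LinearMap.ext fun u => by simp [smul_smul, mul_comm]

lemma rk_add_left (x x' y : κ₁ → F) : D.rk (x + x') y = D.rk x y + D.rk x' y :=
  LinearMap.ext fun u => by simp [smul_add]

/-- The commutator of two radical coefficients. -/
lemma isT_comm {α α' β β' : (κ₁ → F) →ₗ[F] (κ₁ → F)} (hα : D.IsX M α) (hαa : IsAdjN D α α')
    (hβ : D.IsX M β) (hβa : IsAdjN D β β') : D.IsT M (α ∘ₗ β' - β ∘ₗ α') := by
  obtain ⟨w, -, hw, hww⟩ := exists_iso_mem H.u₂ (⊤ : Submodule F (κ₂ → F))
    (by rw [finrank_top, Module.finrank_fintype_fun_eq_card]; have := H.four₂; omega)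
  obtain ⟨z, -, hzz, hwz, -, hzw, -⟩ := exists_iso_conn H.u₂ H.four₂ hww hww
  obtain ⟨z', hz'z', hzz', hwU⟩ := exists_iso_dual H.u₂ hzw hzz (fun u hu => by
    obtain ⟨r, rfl⟩ := Submodule.mem_span_singleton.1 hu
    rw [H.u₂.smul_left, hwz, mul_zero])
  have hwz' := hwU w (Submodule.mem_span_singleton_self w)
  exact TData.isT_of_inM (hyp H) hw hww (comm_inS H.u₁ H.u₂ H.iso hαa hβa hw hww hzz hz'z' hwz hwz' hzz'
    (hα w z hww hzz hwz) (hβ w z' hww hz'z' hwz'))

/-- A radical coefficient gives the exact Siegel element. -/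
lemma exact_elem {α α' : (κ₁ → F) →ₗ[F] (κ₁ → F)} (h : D.IsX M α) (hadj : IsAdjN D α α') {w t : κ₂ → F}
    (hw : w ≠ 0) (hww : D.f₂ w w = 0) (htt : D.f₂ t t = 0) (hwt : D.f₂ w t = 0)
    (hind : t ∉ Submodule.span F {w}) : InM M (D.N0 α α' w t) := by
  obtain ⟨η, hη, hηη⟩ := exists_traceZero H.u₂
  have hτη : τ η = -η := by linear_combination hηη
  obtain ⟨y, hyy, hty, hyU⟩ := exists_iso_dual H.u₂ hind htt (fun u hu => by
    obtain ⟨r, rfl⟩ := Submodule.mem_span_singleton.1 hu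
    rw [H.u₂.smul_left, hwt, mul_zero])
  have hwy := hyU w (Submodule.mem_span_singleton_self w)
  set z := η • y with hz
  have hyt : D.f₂ y t = 1 := by rw [H.u₂.herm, hty, map_one]
  have hzt : D.f₂ z t = η := by rw [hz, H.u₂.smul_left, hyt, mul_one]
  have htz : D.f₂ t z = -η := by rw [hz, smul_right H.u₂, hty, mul_one, hτη]
  have hzz : D.f₂ z z = 0 := by rw [hz, H.u₂.smul_left, smul_right H.u₂, hyy, mul_zero, mul_zero]
  have hwz : D.f₂ w z = 0 := by rw [hz, smul_right H.u₂, hwy, mul_zero]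
  have hzw := orth_comm H.u₂ hwz
  have htw := orth_comm H.u₂ hwt
  obtain ⟨g, hg, e, hgX⟩ := exists_defect H.u₁ H.u₂ H.iso hadj hw hww hwz (h w z hww hzz hwz)
  have hc : η⁻¹ + τ η⁻¹ = 0 := by rw [map_inv₀, hτη, inv_neg, add_neg_cancel]
  obtain ⟨k, hk, hkb⟩ := H.l₂ _ (uT_iso H.u₂ htt hc) (uT_mem_specialLinear H.u₂ htt η⁻¹)
  set b := eqv (CfsgLib.UnitCentres.uT H.u₂ htt η⁻¹) with hb
  have hkb' : ∀ u x, (k : Matrix ι ι F) *ᵥ D.ten u x = D.ten u (b x) := hkb
  have hbw : b w = w := by rw [hb, eqv_apply, uT_mulVec, hwt, mul_zero, zero_smul, add_zero]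
  have hbz : b z = z + t := by rw [hb, eqv_apply, uT_mulVec, hzt, inv_mul_cancel₀ hη, one_smul]
  -- the error is a root map
  obtain ⟨d, hd⟩ := exists_trace_one H.u₁
  have hR : InM M (D.R (η • (α ∘ₗ α')) w) := by
    have h1 := isT_comm H h hadj (h.smul (-(η * d))) (adjN_smul H hadj _) w hww
    refine h1.congr fun X => ?_
    have hl : η = τ (-(η * d)) - -(η * d) := by
      rw [map_neg, map_mul, hτη]
      linear_combination (-η) * hd
    simp only [TData.R_apply, LinearMap.sub_apply, LinearMap.comp_apply, LinearMap.smul_apply, map_smul, map_sub,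
      LinearMap.smul_apply]
    conv_lhs => rw [hl, sub_smul]
  obtain ⟨r, hr, hrX⟩ := hR
  refine ⟨k * g * k⁻¹ * g⁻¹ * r, M.mul_mem (M.mul_mem (M.mul_mem (M.mul_mem hk hg) (M.inv_mem hk)) (M.inv_mem hg)) hr,
    fun X => ?_⟩
  have hctr : ∀ y Y, D.ctr (b y) ((k : Matrix ι ι F) *ᵥ Y) = D.ctr y Y :=
    fun y Y => TData.ctr_of_lift₂ (H.iso k hk) hkb' y Y
  have hconj : ∀ Z, ((k * g * k⁻¹ : GL ι F) : Matrix ι ι F) *ᵥ Z
      = Z + D.N0 α α' w (z + t) Z + D.R e w Z := fun Z => by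
    obtain ⟨Y, rfl⟩ : ∃ Y, (k : Matrix ι ι F) *ᵥ Y = Z := ⟨_, mulVec_inv k Z⟩
    have e1 := hctr w Y
    have e2 := hctr z Y
    rw [hbw] at e1
    rw [hbz] at e2
    rw [mul_mulVec, mul_mulVec, inv_mulVec, hgX, mulVec_add, mulVec_add]
    simp only [TData.N0_apply, TData.R_apply, mulVec_add, hkb', hbw, hbz, e1, e2]
  rw [mul_mulVec, hrX]
  obtain ⟨Y, hY⟩ : ∃ Y, (g : Matrix ι ι F) *ᵥ Y = X + D.R (η • (α ∘ₗ α')) w X := ⟨_, mulVec_inv g _⟩
  rw [← hY, mul_mulVec, inv_mulVec, hconj]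
  have hX : X = (g : Matrix ι ι F) *ᵥ Y - D.R (η • (α ∘ₗ α')) w ((g : Matrix ι ι F) *ᵥ Y) := by
    rw [hY, map_add, TData.R_sq D hww, add_zero, add_sub_cancel_right]
  rw [hX, hgX]
  simp [D.ctr_ten, D.ctr_add, hww, hwt, htw, hwz, hzw, hzz, htt, hzt, htz, map_add]
  module

lemma isX_adjN_comp {α α' β : (κ₁ → F) →ₗ[F] (κ₁ → F)} (hα : D.IsX M α) (hαa : IsAdjN D α α')
    (hβ : D.IsX M β) : D.IsX M (β ∘ₗ α') := by
  obtain ⟨β', hβa⟩ := exists_adjN H β
  obtain ⟨l, hl⟩ : ∃ l, τ l ≠ l := by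
    by_contra! h0; exact H.u₁.ne_refl (RingEquiv.ext h0)
  have h1 := isX_of_isT H (isT_comm H hα hαa hβ hβa)
  have h2 := isX_of_isT H (isT_comm H (hα.smul l) (adjN_smul H hαa l) hβ hβa)
  refine fun w z hw hz hwz => ((((h1.smul l).sub h2).smul (τ l - l)⁻¹) w z hw hz hwz).congr fun X _ => ?_
  have hne : τ l - l ≠ 0 := sub_ne_zero.2 hl
  simp only [LinearMap.comp_apply, LinearMap.smul_apply, LinearMap.sub_apply, map_smul]
  match_scalars <;> field_simp <;> ring

lemma isX_adjN {α α' : (κ₁ → F) →ₗ[F] (κ₁ → F)} (hα : D.IsX M α) (hαa : IsAdjN D α α') : D.IsX M α' := by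
  simpa using isX_adjN_comp H hα hαa (TData.isX_id (hyp H))

lemma isX_comp {α β : (κ₁ → F) →ₗ[F] (κ₁ → F)} (hα : D.IsX M α) (hβ : D.IsX M β) : D.IsX M (β ∘ₗ α) := by
  obtain ⟨α', hαa⟩ := exists_adjN H α
  exact isX_adjN_comp H (isX_adjN H hα hαa) (adjN_symm H hαa) hβ

/-- A non-scalar map moves some isotropic line. -/
lemma exists_moved {α : (κ₁ → F) →ₗ[F] (κ₁ → F)} (hne : ¬∃ c : F, ∀ u, α u = c • u) :
    ∃ a, D.f₁ a a = 0 ∧ α a ∉ Submodule.span F {a} := by
  by_contra! h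
  refine hne ?_
  have same : ∀ a b (l : F), D.f₁ a a = 0 → D.f₁ b b = 0 → D.f₁ b a ≠ 0 → α b = l • b → α a = l • a := by
    intro a b l ha hb hba hl
    obtain ⟨ε, hε, hεσ⟩ := exists_traceZero H.u₁
    set t := ε / D.f₁ b a with ht
    have ht0 : t ≠ 0 := div_ne_zero hε hba
    have hc : D.f₁ (a + t • b) (a + t • b) = 0 := by
      rw [norm_add_smul H.u₁, ha, hb, mul_zero, add_zero, zero_add, ht, map_div₀, ← H.u₁.herm,
        div_mul_cancel₀ _ hba, div_mul_cancel₀ _ (fun e => hba (orth_comm H.u₁ e))]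
      linear_combination hεσ
    obtain ⟨p, hp⟩ := Submodule.mem_span_singleton.1 (h a ha)
    obtain ⟨r, hr⟩ := Submodule.mem_span_singleton.1 (h _ hc)
    rw [map_add, map_smul, ← hp, hl] at hr
    have e1 : (r - p) • a + (t * (r - l)) • b = 0 := by linear_combination (norm := module) hr
    have e2 := congrArg (fun v => D.f₁ v a) e1
    simp only [D.f₁_add_left, D.f₁_smul_left, ha, mul_zero, zero_add, zero_left H.u₁] at e2
    have hrl := sub_eq_zero.1 ((mul_eq_zero.1 ((mul_eq_zero.1 e2).resolve_right hba)).resolve_left ht0)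
    rw [hrl, sub_self, mul_zero, zero_smul, add_zero, smul_eq_zero, sub_eq_zero] at e1
    rcases e1 with e1 | e1
    · rw [← hp, e1]
    · rw [e1, map_zero, smul_zero]
  obtain ⟨a₀, -, ha₀, ha₀₀⟩ := exists_iso_mem H.u₁ (⊤ : Submodule F (κ₁ → F))
    (by rw [finrank_top, Module.finrank_fintype_fun_eq_card]; exact H.two₁)
  obtain ⟨e, hee, hae, hea⟩ := exists_partner H.u₁ ha₀ ha₀₀
  obtain ⟨l, hl⟩ := Submodule.mem_span_singleton.1 (h a₀ ha₀₀)
  have hle : α e = l • e := same e a₀ l hee ha₀₀ (by rw [hae]; exact one_ne_zero) hl.symm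
  have hiso : ∀ a, D.f₁ a a = 0 → α a = l • a := by
    intro a ha
    by_cases h1 : D.f₁ e a = 0
    · by_cases h2 : D.f₁ a₀ a = 0
      · have ha' : D.f₁ (a + a₀) (a + a₀) = 0 := by
          rw [H.u₁.add_left, add_right H.u₁, add_right H.u₁, ha, ha₀₀, h2, orth_comm H.u₁ h2]; ring
        have h3 := same (a + a₀) e l ha' hee (by rw [add_right H.u₁, h1, hea, zero_add]; exact one_ne_zero) hle
        rw [map_add, smul_add, ← hl] at h3
        exact add_right_cancel h3
      · exact same a a₀ l ha ha₀₀ h2 hl.symm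
    · exact same a e l ha hee h1 hle
  refine ⟨l, fun u => ?_⟩
  refine Submodule.span_induction (p := fun u _ => α u = l • u) (fun y hy => hiso y hy)
    (by rw [map_zero, smul_zero]) (fun x y _ _ hx hy => by rw [map_add, hx, hy, smul_add])
    (fun c x _ hx => by rw [map_smul, hx, smul_comm]) (span_iso H.u₁ H.two₁ u)

/-- Some coefficient pairs an isotropic vector with its image. -/
lemma exists_kappa {α : (κ₁ → F) →ₗ[F] (κ₁ → F)} (hα : D.IsX M α) {a : κ₁ → F} (ha : D.f₁ a a = 0)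
    (hne : α a ∉ Submodule.span F {a}) : ∃ β, D.IsX M β ∧ D.f₁ (β a) a ≠ 0 := by
  by_contra! h0
  have hpair : ∀ β γ, D.IsX M β → D.IsX M γ → D.f₁ (β a) (γ a) = 0 := fun β γ hβ hγ => by
    obtain ⟨γ', hγa⟩ := exists_adjN H γ
    have h1 := h0 _ (isX_comp H hβ (isX_adjN H hγ hγa))
    rw [LinearMap.comp_apply, hγa] at h1
    exact neg_eq_zero.1 h1
  obtain ⟨b, hbb, hαb, hU⟩ := exists_iso_dual H.u₁ hne (hpair α α hα hα) (fun u hu => by
    obtain ⟨r, rfl⟩ := Submodule.mem_span_singleton.1 hu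
    rw [D.f₁_smul_left, orth_comm H.u₁ (h0 α hα), mul_zero])
  have hab := hU a (Submodule.mem_span_singleton_self a)
  obtain ⟨ε, hε, hεσ⟩ := exists_traceZero H.u₁
  obtain ⟨t, ht, htu⟩ := exists_t₁ H hbb hεσ
  have hta : t a = a := by rw [htu, hab, mul_zero, zero_smul, add_zero]
  have h1 := hpair α _ hα (TData.IsX.conj (hyp H) hα ht)
  simp only [LinearMap.comp_apply, LinearEquiv.coe_coe] at h1
  rw [show t.symm a = a from t.injective (by rw [t.apply_symm_apply, hta]), htu, hαb, mul_one, add_right H.u₁,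
    hpair α α hα hα, zero_add, smul_right H.u₁, hαb, mul_one] at h1
  exact hε ((map_eq_zero τ).1 h1)

set_option maxHeartbeats 800000 in
/-- A pairing coefficient gives a transvection coefficient. -/
lemma isX_rk_self {α : (κ₁ → F) →ₗ[F] (κ₁ → F)} (hα : D.IsX M α) {a : κ₁ → F} (ha : D.f₁ a a = 0)
    (hκ : D.f₁ (α a) a ≠ 0) : D.IsX M (D.rk a a) := by
  have hdiff : ∀ η, η + τ η = 0 → ∀ β, D.IsX M β →
      D.IsX M (η • (D.rk a a ∘ₗ β - β ∘ₗ D.rk a a) - (η * η * D.f₁ (β a) a) • D.rk a a) := by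
    intro η hη β hβ
    obtain ⟨t, ht, htu⟩ := exists_t₁ H ha hη
    refine fun w z hw hz hwz => (((TData.IsX.conj (hyp H) hβ ht).sub hβ) w z hw hz hwz).congr fun X _ => ?_
    have e : ∀ v, t.symm v = v + (-(η * D.f₁ v a)) • a := fun v => t.injective (by
      rw [t.apply_symm_apply, htu, D.f₁_add_left, D.f₁_smul_left, ha]
      module)
    simp only [LinearMap.comp_apply, LinearMap.sub_apply, LinearMap.smul_apply, LinearEquiv.coe_coe, e, htu,
      map_add, map_smul, D.f₁_add_left, D.f₁_smul_left, TData.rk_apply]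
    module
  obtain ⟨ε, hε, hεσ⟩ := exists_traceZero H.u₁
  by_cases hk : ∃ k : F, τ k = k ∧ k ≠ 0 ∧ k ≠ 1
  · obtain ⟨k, hkσ, hk0, hk1⟩ := hk
    set μ := (k - k * k) * (ε * ε * D.f₁ (α a) a) with hμ
    have hμ0 : μ ≠ 0 := mul_ne_zero (by
      rw [sub_ne_zero]; intro h0
      exact hk1 (mul_right_cancel₀ hk0 (by rw [← h0, one_mul]))) (mul_ne_zero (mul_ne_zero hε hε) hκ)
    have h1 := hdiff ε hεσ α hα
    have h2 := hdiff (k * ε) (by rw [map_mul, hkσ, ← mul_add, hεσ, mul_zero]) α hα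
    refine fun w z hw hz hwz => (((h2.sub (h1.smul k)).smul μ⁻¹) w z hw hz hwz).congr fun X _ => ?_
    simp only [LinearMap.comp_apply, LinearMap.smul_apply, LinearMap.sub_apply, TData.rk_apply]
    simp only [μ] at hμ0 ⊢
    match_scalars <;> field_simp <;> ring
  -- two fixed scalars only
  push Not at hk
  have hfix : ∀ x : F, τ x = x → x = 0 ∨ x = 1 := fun x hx => or_iff_not_imp_left.2 (hk x hx)
  have h2F : (2 : F) = 0 := (hfix 2 (map_ofNat τ 2)).resolve_right fun h0 =>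
    one_ne_zero (show (1 : F) = 0 by linear_combination h0)
  have h3 : 3 ≤ Fintype.card κ₁ := H.small.resolve_left fun ⟨k, hkσ, hk0, hk1⟩ => hk1 (hk k hkσ hk0)
  have hneg : ∀ x : F, -x = x := fun x => by linear_combination (-x) * h2F
  have hnegV : ∀ x : (κ₁ → F) →ₗ[F] (κ₁ → F), -x = x := fun x => by rw [← neg_one_smul F x, hneg, one_smul]
  set N := D.rk a a with hN
  set β := (D.f₁ (α a) a)⁻¹ • α with hβdef
  have hβ : D.IsX M β := hα.smul _
  set b := β a with hb
  have hba : D.f₁ b a = 1 := by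
    rw [hb, hβdef, LinearMap.smul_apply, D.f₁_smul_left, inv_mul_cancel₀ hκ]
  have hab : D.f₁ a b = 1 := by rw [H.u₁.herm, hba, map_one]
  obtain ⟨β', hβa⟩ := exists_adjN H β
  set e := β' a + a with he
  have hea : D.f₁ e a = 1 := by
    rw [he, D.f₁_add_left, ha, hβa, hneg, add_zero]; exact hab
  have hae : D.f₁ a e = 1 := by rw [H.u₁.herm, hea, map_one]
  -- the rank two coefficient
  have hD : D.IsX M (D.rk a e + D.rk b a) := by
    refine fun w z hw hz hwz => ((hdiff 1 (by rw [map_one]; linear_combination h2F) β hβ) w z hw hz hwz).congr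
      fun X _ => ?_
    have h1 : ∀ u, D.f₁ u (β' a) = D.f₁ (β u) a := fun u => by
      rw [H.u₁.herm u, hβa, hneg, ← H.u₁.herm]
    have hnv : ∀ x : κ₁ → F, -x = x := fun x => by rw [← neg_one_smul F x, hneg, one_smul]
    simp only [LinearMap.comp_apply, LinearMap.smul_apply, LinearMap.sub_apply, LinearMap.add_apply,
      TData.rk_apply, map_smul, ← hb, hba, one_mul, one_smul, he, D.f₁_add_right, h1, hN]
    rw [sub_eq_add_neg, sub_eq_add_neg, hnv, hnv, add_smul]
    abel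
  have hD' : D.IsX M (D.rk e a + D.rk a b) := isX_adjN H hD fun x u => by
    simp only [LinearMap.add_apply, TData.rk_apply, D.f₁_add_left, D.f₁_add_right, D.f₁_smul_left,
      smul_right H.u₁, ← H.u₁.herm, hneg]
    ring
  set ε' := D.f₁ e e with hε'
  set E := D.rk a b + D.rk b a + ε' • N with hE
  have hEX : D.IsX M E := by
    refine fun w z hw hz hwz => ((isX_comp H hD' hD) w z hw hz hwz).congr fun X _ => ?_
    simp only [LinearMap.comp_apply, LinearMap.add_apply, TData.rk_apply, map_add, map_smul, D.f₁_add_left,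
      D.f₁_smul_left, hae, hea, ha, hE, hN, LinearMap.smul_apply, hε']
    module
  by_cases hz0 : D.f₁ b b + ε' = 0
  swap
  · refine fun w z hw hz hwz => ((((isX_comp H hEX hEX).sub hEX).smul (D.f₁ b b + ε')⁻¹) w z hw hz hwz).congr
      fun X _ => ?_
    have h22 : ε' + ε' = 0 := by linear_combination ε' * h2F
    simp only [LinearMap.comp_apply, LinearMap.smul_apply, LinearMap.sub_apply, LinearMap.add_apply,
      TData.rk_apply, hE, hN, map_add, map_smul, D.f₁_add_left, D.f₁_smul_left, ha, hab, hba]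
    match_scalars <;> field_simp <;> grind
  -- a hyperbolic plane projection
  obtain ⟨s, hs⟩ := exists_trace H.u₁ (r := ε') (norm_fixed H.u₁ e)
  set c := b + s • a with hc
  have hca : D.f₁ c a = 1 := by rw [hc, D.f₁_add_left, D.f₁_smul_left, hba, ha, mul_zero, add_zero]
  have hac : D.f₁ a c = 1 := by rw [H.u₁.herm, hca, map_one]
  have hcc : D.f₁ c c = 0 := by
    rw [hc, norm_add_smul H.u₁, hba, hab, ha, mul_zero, add_zero, mul_one, mul_one]
    linear_combination hz0 + hs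
  have hπ : D.IsX M (D.rk a c + D.rk c a) := by
    refine fun w z hw hz hwz => (hEX w z hw hz hwz).congr fun X _ => ?_
    simp only [hE, hN, hc, LinearMap.comp_apply, LinearMap.add_apply, LinearMap.smul_apply, TData.rk_apply,
      D.f₁_add_right, smul_right H.u₁, ← hs]
    module
  obtain ⟨v, hv, hvv⟩ := exists_aniso_perp H.u₁ (Submodule.span F {a, c}) (fun x hx hx0 => by
    obtain ⟨p, r, rfl⟩ := Submodule.mem_span_pair.1 hx
    have g1 := hx0 c (Submodule.subset_span (by simp))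
    have g2 := hx0 a (Submodule.subset_span (by simp))
    simp only [D.f₁_add_left, D.f₁_smul_left, hac, hcc, ha, hca, mul_one, mul_zero, add_zero, zero_add] at g1 g2
    simp [g1, g2]) (by
    classical
    have h := finrank_span_le (F := F) ({a, c} : Finset (κ₁ → F))
    have := Finset.card_le_two (a := a) (b := c)
    rw [show (({a, c} : Finset (κ₁ → F)) : Set (κ₁ → F)) = {a, c} by simp] at h
    omega)
  have hva : D.f₁ v a = 0 := hv a (Submodule.subset_span (by simp))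
  have hvc : D.f₁ v c = 0 := hv c (Submodule.subset_span (by simp))
  have hv1 : D.f₁ v v = 1 := (hfix _ (norm_fixed H.u₁ v)).resolve_left hvv
  obtain ⟨r, hr⟩ := exists_trace_one H.u₁
  set c' := c + v + r • a with hc'
  have hc'a : D.f₁ c' a = 1 := by
    rw [hc', D.f₁_add_left, D.f₁_add_left, D.f₁_smul_left, hca, hva, ha, mul_zero, add_zero, add_zero]
  have hac' : D.f₁ a c' = 1 := by rw [H.u₁.herm, hc'a, map_one]
  have hc'c : D.f₁ c' c = r := by
    rw [hc', D.f₁_add_left, D.f₁_add_left, D.f₁_smul_left, hcc, hvc, hac, mul_one, zero_add, zero_add]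
  have hc'v : D.f₁ c' v = 1 := by
    rw [hc', D.f₁_add_left, D.f₁_add_left, D.f₁_smul_left, orth_comm H.u₁ hvc, hv1, orth_comm H.u₁ hva, mul_zero,
      add_zero, zero_add]
  have hc'c' : D.f₁ c' c' = 0 := by
    conv_lhs => arg 2; rw [hc']
    rw [D.f₁_add_right, D.f₁_add_right, smul_right H.u₁, hc'a, hc'c, hc'v, mul_one]
    linear_combination hr + h2F
  -- the isometry
  have hu : D.f₁ (v + a) (v + a) = 1 := by
    rw [D.f₁_add_left, D.f₁_add_right, D.f₁_add_right, hv1, hva, ha, orth_comm H.u₁ hva, add_zero, add_zero, add_zero]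
  have ha0 : a ≠ 0 := fun h0 => zero_ne_one (by rw [← hba, h0, zero_right H.u₁])
  have hca' : c ∉ Submodule.span F {a} := fun hm => by
    obtain ⟨p, hp⟩ := Submodule.mem_span_singleton.1 hm
    rw [← hp, D.f₁_smul_left, ha, mul_zero] at hca
    exact zero_ne_one hca
  obtain ⟨L, hLa, hLc⟩ := exists_linearMap_pair ha0 hca' a c'
  let Xs := Submodule.span F ({a, c} : Set (κ₁ → F))
  let φ : Xs →ₗ[F] (κ₁ → F) := L ∘ₗ Xs.subtype
  have hφ : ∀ x : Xs, ∃ p s : F, (x : κ₁ → F) = p • a + s • c ∧ φ x = p • a + s • c' := fun x => by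
    obtain ⟨p, s, hps⟩ := Submodule.mem_span_pair.1 x.2
    exact ⟨p, s, hps.symm, by simp [φ, ← hps, hLa, hLc]⟩
  have hinj : Function.Injective φ := (injective_iff_map_eq_zero φ).2 fun x hx => by
    obtain ⟨p, s, hps, hφx⟩ := hφ x
    rw [hx] at hφx
    have g1 := congrArg (fun y => D.f₁ y a) hφx
    have g2 := congrArg (fun y => D.f₁ y c') hφx
    simp only [zero_left H.u₁, D.f₁_add_left, D.f₁_smul_left, ha, hc'a, hac', hc'c', mul_zero, mul_one, zero_add,
      add_zero] at g1 g2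
    exact Subtype.ext (by simp [hps, ← g1, ← g2])
  have hB : ∀ x x' : Xs, D.f₁ (φ x) (φ x') = D.f₁ (x : κ₁ → F) (x' : κ₁ → F) := fun x x' => by
    obtain ⟨p, s, h1, h1'⟩ := hφ x
    obtain ⟨p', s', h4, h4'⟩ := hφ x'
    simp [h1, h4, h1', h4', D.f₁_add_left, D.f₁_add_right, D.f₁_smul_left, smul_right H.u₁, ha, hac, hca, hcc,
      hac', hc'a, hc'c']
  have hu' : ∀ x : Xs, D.f₁ (φ x) (v + a) = 0 := fun x => by
    obtain ⟨p, s, -, h1'⟩ := hφ x
    simp only [h1', D.f₁_add_left, D.f₁_add_right, D.f₁_smul_left, ha, hc'a, hc'v, orth_comm H.u₁ hva, mul_one,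
      mul_zero, add_zero, zero_add]
    linear_combination s * h2F
  obtain ⟨G, hG, hGs, hGX⟩ := CfsgLib.UnitCentres.exists_iso_special H.u₁ Xs φ hinj hB hu hu'
  set t := eqv G with ht
  have hta : t a = a := by
    rw [ht, eqv_apply]; have := hGX ⟨a, Submodule.subset_span (by simp)⟩; simpa [φ, hLa] using this
  have htc : t c = c' := by
    rw [ht, eqv_apply]; have := hGX ⟨c, Submodule.subset_span (by simp)⟩; simpa [φ, hLc] using this
  have hπ' : D.IsX M (D.rk a c' + D.rk c' a) := by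
    refine fun w z hw hz hwz =>
      ((TData.IsX.conj (hyp H) hπ (lift₁_of H hG hGs)) w z hw hz hwz).congr fun X _ => ?_
    have e : ∀ x y, D.f₁ (t.symm x) y = D.f₁ x (t y) := fun x y => by
      conv_rhs => rw [← t.apply_symm_apply x]
      exact (hG _ _).symm
    simp only [← ht, LinearMap.comp_apply, LinearMap.add_apply, TData.rk_apply, LinearEquiv.coe_coe, e, hta, htc,
      map_add, map_smul]
  have hL : D.IsX M (D.rk a (v + a)) := by
    refine fun w z hw hz hwz => (((isX_comp H hπ' hπ).sub hπ) w z hw hz hwz).congr fun X _ => ?_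
    simp only [LinearMap.comp_apply, LinearMap.sub_apply, LinearMap.add_apply, TData.rk_apply, map_add, map_smul,
      D.f₁_add_left, D.f₁_smul_left, hac, hc'c, hc'a, ha, D.f₁_add_right]
    have e : ∀ u, D.f₁ u c' = D.f₁ u c + D.f₁ u v + τ r * D.f₁ u a := fun u => by
      rw [hc', D.f₁_add_right, D.f₁_add_right, smul_right H.u₁]
    simp only [e]
    match_scalars <;> grind
  refine fun w z hw hz hwz => ((isX_comp H (isX_adjN H hL (adjN_rk H a (v + a))) hL) w z hw hz hwz).congr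
    fun X _ => ?_
  rw [hnegV, rk_comp H, hu, one_smul]

/-- A non-scalar coefficient gives every rank one coefficient. -/
theorem isX_rk (hns : ¬ D.OnlyScalars M) (x y : κ₁ → F) : D.IsX M (D.rk x y) := by
  obtain ⟨α₀, hα₀, hne⟩ : ∃ α, D.IsX M α ∧ ¬∃ c : F, ∀ u, α u = c • u := by
    by_contra! h
    exact hns ⟨fun θ hθ => h θ (isX_of_isT H hθ), h⟩
  obtain ⟨a, ha, hane⟩ := exists_moved H hne
  obtain ⟨α, hα, hκ⟩ := exists_kappa H hα₀ ha hane
  have hN := isX_rk_self H hα ha hκ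
  let W : Submodule F (κ₁ → F) :=
    { carrier := {x | D.IsX M (D.rk x a)}
      add_mem' := fun {p r} hp hr => by
        show D.IsX M (D.rk (p + r) a)
        rw [rk_add_left H]; exact TData.IsX.add hp hr
      zero_mem' := by
        show D.IsX M (D.rk 0 a)
        rw [show D.rk 0 a = (0 : F) • D.rk a a from LinearMap.ext fun u => by simp]
        exact hN.smul 0
      smul_mem' := fun c p hp => by
        show D.IsX M (D.rk (c • p) a)
        rw [rk_smul_left H]; exact TData.IsX.smul hp c }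
  have hba : α a ∈ W := by
    show D.IsX M (D.rk (α a) a)
    have : D.rk (α a) a = α ∘ₗ D.rk a a := LinearMap.ext fun u => by simp
    rw [this]; exact isX_comp H hN hα
  have hWW : ∀ p ∈ W, ∀ r ∈ W, D.IsX M (D.rk p r) := fun p hp r hr => by
    have h1 := isX_adjN H hr (adjN_rk H r a)
    have h2 := (isX_comp H (isX_comp H h1 hα) hp).smul (-(D.f₁ (α a) a)⁻¹)
    refine fun w z hw hz hwz => (h2 w z hw hz hwz).congr fun X _ => ?_
    simp [smul_smul, D.f₁_smul_left, hκ, mul_comm, mul_left_comm]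
  have hab : D.f₁ a (α a) ≠ 0 := fun h => hκ (orth_comm H.u₁ h)
  have hstab : ∀ e, D.f₁ e e = 0 → ∀ p ∈ W, D.f₁ p e ≠ 0 → e ∈ W := by
    intro e he p hp hpe
    obtain ⟨η, hη, hησ⟩ := exists_traceZero H.u₁
    obtain ⟨t, ht, htu⟩ := exists_t₁ H he hησ
    obtain ⟨r, hr, har⟩ : ∃ r ∈ W, D.f₁ a (t r) ≠ 0 := by
      by_cases hae : D.f₁ a e = 0
      · refine ⟨α a, hba, ?_⟩
        rw [show D.f₁ a (t (α a)) = D.f₁ (t a) (t (α a)) by rw [htu a, hae, mul_zero, zero_smul, add_zero],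
          ht.1]
        exact hab
      · refine ⟨a, hN, ?_⟩
        rw [htu, D.f₁_add_right, ha, zero_add, smul_right H.u₁, map_mul]
        exact mul_ne_zero (mul_ne_zero (by simpa using hη) (by simpa using hae)) hae
    have h1 := isX_comp H hN (TData.IsX.conj (hyp H) (hWW p hp r hr) ht)
    have h2 : t p ∈ W := by
      show D.IsX M (D.rk (t p) a)
      refine fun w z hw hz hwz => ((h1.smul (D.f₁ a (t r))⁻¹) w z hw hz hwz).congr fun X _ => ?_
      have e' : ∀ u v, D.f₁ (t.symm u) v = D.f₁ u (t v) := fun u v => by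
        conv_rhs => rw [← t.apply_symm_apply u, ht.1]
      simp [e', smul_smul, D.f₁_smul_left, har, mul_comm, mul_left_comm]
    rw [htu, W.add_mem_iff_right hp, W.smul_mem_iff (mul_ne_zero hη hpe)] at h2
    exact h2
  have hiso : ∀ e, D.f₁ e e = 0 → e ∈ W := by
    intro e he
    by_cases hae : D.f₁ a e = 0
    swap
    · exact hstab e he a hN hae
    by_cases hbe : D.f₁ (α a) e = 0
    swap
    · exact hstab e he (α a) hba hbe
    have h1 := hstab (e + a) (by
      rw [D.f₁_add_left, D.f₁_add_right, D.f₁_add_right, he, hae, ha, orth_comm H.u₁ hae]; ring) (α a) hba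
      (by rw [D.f₁_add_right, hbe, zero_add]; exact hκ)
    exact (W.add_mem_iff_left hN).1 h1
  have hW : ∀ p, p ∈ W := fun p => Submodule.span_le.2 (fun e he => hiso e he) (span_iso H.u₁ H.two₁ p)
  exact hWW x (hW x) y (hW y)

end CfsgLib.UnitTensor96
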